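import Mathlib
import Cfsg.Agent.Lib.Helper9.CS3

set_option autoImplicit false

namespace Cfsg.Agent.Lib.Helper9.Wie3

open Subgroup Pointwise

universe u

/-- Subgroups of coprime index: `G = K H`. -/
theorem exists_mul_of_coprime_index {G : Type u} [Group G] [Finite G] (H K : Subgroup G)
    (h : Nat.Coprime H.index K.index) (g : G) : ∃ k ∈ K, ∃ x ∈ H, g = k * x := by
  have hstab : MulAction.stabilizer K ((1 : G) : G ⧸ H) = H.subgroupOf K := by
    ext k
    rw [MulAction.mem_stabilizer_iff, mem_subgroupOf]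
    show (((k : G) * 1 : G) : G ⧸ H) = ((1 : G) : G ⧸ H) ↔ _
    rw [QuotientGroup.eq]
    simp
  have hidx : (H.subgroupOf K).index = H.index := by
    have h1 : (H ⊓ K).relIndex K * K.index = (H ⊓ K).index := relIndex_mul_index inf_le_right
    rw [inf_relIndex_right, Cfsg.Agent.Lib.Helper9.CS3.index_inf_of_coprime H K h] at h1
    exact Nat.eq_of_mul_eq_mul_right (Nat.pos_of_ne_zero index_ne_zero_of_finite) h1
  have horb : (MulAction.orbit K ((1 : G) : G ⧸ H)).ncard = Nat.card (G ⧸ H) := by
    rw [← MulAction.index_stabilizer, hstab, hidx, index_eq_card]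
  have huniv : MulAction.orbit K ((1 : G) : G ⧸ H) = Set.univ :=
    (Set.eq_univ_iff_ncard _).2 horb
  have hg : (g : G ⧸ H) ∈ MulAction.orbit K ((1 : G) : G ⧸ H) := huniv ▸ Set.mem_univ _
  obtain ⟨k, hk⟩ := hg
  refine ⟨k, k.2, (k : G)⁻¹ * g, ?_, by group⟩
  have hk' : (((k : G) * 1 : G) : G ⧸ H) = (g : G ⧸ H) := hk
  rw [QuotientGroup.eq] at hk'
  simpa using hk'

/-- If `p ∤ [G : K]`, every `p`-subgroup lies in a conjugate of `K`. -/
theorem exists_conj_le_of_not_dvd_index {G : Type u} [Group G] [Finite G] (p : ℕ)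
    [hp : Fact p.Prime] (K M : Subgroup G) (hK : ¬ p ∣ K.index) (hM : IsPGroup p M) :
    ∃ g : G, ∀ m ∈ M, g⁻¹ * m * g ∈ K := by
  obtain ⟨P₀⟩ : Nonempty (Sylow p K) := inferInstance
  have h1 : IsPGroup p ((P₀ : Subgroup K).map K.subtype) := P₀.isPGroup'.map _
  have h2 : ¬ p ∣ ((P₀ : Subgroup K).map K.subtype).index := by
    rw [Subgroup.index_map_subtype]
    exact hp.1.not_dvd_mul P₀.not_dvd_index hK
  obtain ⟨P', hP'⟩ := hM.exists_le_sylow
  obtain ⟨g, hg⟩ := MulAction.exists_smul_eq G (h1.toSylow h2) P'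
  refine ⟨g, fun m hm => ?_⟩
  have hm' : m ∈ ((g • (h1.toSylow h2) : Sylow p G) : Subgroup G) := by
    rw [hg]; exact hP' hm
  rw [Sylow.coe_subgroup_smul, Subgroup.mem_pointwise_smul_iff_inv_smul_mem] at hm'
  have hm2 : g⁻¹ * m * g ∈ (P₀ : Subgroup K).map K.subtype := by
    have : (MulAut.conj g)⁻¹ • m = g⁻¹ * m * g := by
      simp [MulAut.smul_def]
    rw [this] at hm'
    simpa using hm'
  exact (Subgroup.map_subtype_le _) hm2

/-- Key step of Wielandt's solvability criterion. -/
theorem exists_solvable_normal {G : Type u} [Group G] [Finite G] (p : ℕ) [hp : Fact p.Prime]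
    (H K M : Subgroup G) (hcop : Nat.Coprime H.index K.index) (hKsol : Group.IsSolvable K)
    (hMH : M ≤ H) (hHM : H ≤ normalizer (M : Set G)) (hM : IsPGroup p M) (hMne : M ≠ ⊥)
    (hpK : ¬ p ∣ K.index) :
    ∃ N : Subgroup G, N.Normal ∧ N ≠ ⊥ ∧ Group.IsSolvable N := by
  obtain ⟨g, hg⟩ := exists_conj_le_of_not_dvd_index p K M hpK hM
  obtain ⟨K', hK'⟩ : ∃ K' : Subgroup G, K' = K.map (MulAut.conj g).toMonoidHom := ⟨_, rfl⟩
  have hMK' : M ≤ K' := by
    intro m hm
    rw [hK', mem_map]
    exact ⟨g⁻¹ * m * g, hg m hm, by simp [MulAut.conj_apply]; group⟩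
  have hK'idx : K'.index = K.index := by
    rw [hK']; exact index_map_equiv K (MulAut.conj g)
  have hK'sol : Group.IsSolvable K' := by
    rw [hK']
    exact Group.isSolvable_of_surjective
      (f := ((MulAut.conj g).toMonoidHom).subgroupMap K)
      (((MulAut.conj g).toMonoidHom).subgroupMap_surjective K)
  refine ⟨normalClosure (M : Set G), normalClosure_normal, ?_, ?_⟩
  · intro e
    apply hMne
    rw [eq_bot_iff, ← e]
    exact le_normalClosure
  · have hle : normalClosure (M : Set G) ≤ K' := by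
      rw [normalClosure]
      apply (closure_le _).2
      intro y hy
      rw [Group.mem_conjugatesOfSet_iff] at hy
      obtain ⟨m, hm, hconj⟩ := hy
      rw [isConj_iff] at hconj
      obtain ⟨c, rfl⟩ := hconj
      obtain ⟨k, hk, x, hx, rfl⟩ :=
        exists_mul_of_coprime_index H K' (by rw [hK'idx]; exact hcop) c
      have h1 : x * m * x⁻¹ ∈ M := ((mem_normalizer_iff.1 (hHM hx)) m).1 hm
      have h2 : k * x * m * (k * x)⁻¹ = k * (x * m * x⁻¹) * k⁻¹ := by group
      rw [h2]
      exact K'.mul_mem (K'.mul_mem hk (hMK' h1)) (K'.inv_mem hk)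
    exact Group.isSolvable_of_isSolvable_injective (f := Subgroup.inclusion hle)
      (Subgroup.inclusion_injective hle)

/-- Wielandt: a finite group with three solvable subgroups of pairwise coprime indices is
solvable. -/
theorem wielandt : ∀ (n : ℕ) (G : Type u) [Group G] [Finite G], Nat.card G = n →
    ∀ H K L : Subgroup G, Group.IsSolvable H → Group.IsSolvable K → Group.IsSolvable L →
    Nat.Coprime H.index K.index → Nat.Coprime H.index L.index →
    Nat.Coprime K.index L.index → Group.IsSolvable G := by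
  intro n
  induction n using Nat.strong_induction_on with
  | _ n ih =>
    intro G _ _ hn H K L hH hK hL hHK hHL hKL
    by_cases hHbot : H = ⊥
    · subst hHbot
      rw [index_bot] at hHK
      have h1 : K.index = 1 := Nat.Coprime.eq_one_of_dvd hHK.symm (K.index_dvd_card)
      rw [index_eq_one] at h1
      subst h1
      exact Group.isSolvable_of_surjective (f := (⊤ : Subgroup G).subtype)
        (fun g => ⟨⟨g, trivial⟩, rfl⟩)
    have htop : (⊤ : Subgroup H) ≠ ⊥ := by
      intro e
      apply hHbot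
      rw [eq_bot_iff]
      intro x hx
      have h1 : (⟨x, hx⟩ : H) ∈ (⊤ : Subgroup H) := mem_top _
      rw [e, mem_bot] at h1
      rw [mem_bot]
      exact congrArg Subtype.val h1
    obtain ⟨p, A, hp, -, hAn, hAne, hAp, -⟩ :=
      Cfsg.Agent.Lib.Helper9.CS2.exists_abelian_normal_pgroup_le (⊤ : Subgroup H) htop
    have hfp : Fact p.Prime := ⟨hp⟩
    obtain ⟨M, hMdef⟩ : ∃ M : Subgroup G, M = A.map H.subtype := ⟨_, rfl⟩
    have hMH : M ≤ H := hMdef ▸ map_subtype_le A
    have hHM : H ≤ normalizer (M : Set G) := by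
      intro x hx
      rw [mem_normalizer_iff]
      intro y
      rw [hMdef]
      constructor
      · rintro ⟨a, ha, rfl⟩
        exact ⟨⟨x, hx⟩ * a * ⟨x, hx⟩⁻¹, hAn.conj_mem a ha ⟨x, hx⟩, by simp⟩
      · rintro ⟨a, ha, hae⟩
        refine ⟨⟨x, hx⟩⁻¹ * a * ⟨x, hx⟩, ?_, ?_⟩
        · have := hAn.conj_mem a ha ⟨x, hx⟩⁻¹
          simpa using this
        · simp only [subtype_apply] at hae
          simp only [subtype_apply, Subgroup.coe_mul, Subgroup.coe_inv, hae]
          group
    have hMp : IsPGroup p M := hMdef ▸ hAp.map _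
    have hMne : M ≠ ⊥ := by
      rw [hMdef]
      exact fun e => hAne ((map_eq_bot_iff_of_injective A H.subtype_injective).1 e)
    have hor : ¬ p ∣ K.index ∨ ¬ p ∣ L.index := by
      by_contra hc
      push Not at hc
      exact hp.one_lt.ne' (Nat.eq_one_of_dvd_coprimes hKL hc.1 hc.2)
    obtain ⟨N, hNn, hNne, hNsol⟩ : ∃ N : Subgroup G, N.Normal ∧ N ≠ ⊥ ∧ Group.IsSolvable N := by
      rcases hor with hpK | hpL
      · exact exists_solvable_normal p H K M hHK hK hMH hHM hMp hMne hpK
      · exact exists_solvable_normal p H L M hHL hL hMH hHM hMp hMne hpL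
    have hsurj := QuotientGroup.mk'_surjective N
    have hQ : Group.IsSolvable (G ⧸ N) := by
      apply ih (Nat.card (G ⧸ N)) _ (G ⧸ N) rfl (H.map (QuotientGroup.mk' N))
        (K.map (QuotientGroup.mk' N)) (L.map (QuotientGroup.mk' N))
      · exact Group.isSolvable_of_surjective (f := (QuotientGroup.mk' N).subgroupMap H)
          ((QuotientGroup.mk' N).subgroupMap_surjective H)
      · exact Group.isSolvable_of_surjective (f := (QuotientGroup.mk' N).subgroupMap K)
          ((QuotientGroup.mk' N).subgroupMap_surjective K)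
      · exact Group.isSolvable_of_surjective (f := (QuotientGroup.mk' N).subgroupMap L)
          ((QuotientGroup.mk' N).subgroupMap_surjective L)
      · exact Nat.Coprime.of_dvd (index_map_dvd H hsurj) (index_map_dvd K hsurj) hHK
      · exact Nat.Coprime.of_dvd (index_map_dvd H hsurj) (index_map_dvd L hsurj) hHL
      · exact Nat.Coprime.of_dvd (index_map_dvd K hsurj) (index_map_dvd L hsurj) hKL
      · rw [← hn, ← Subgroup.index_eq_card, ← Subgroup.card_mul_index N]
        have h1 : 1 < Nat.card N := by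
          have : Nontrivial N := (nontrivial_iff_ne_bot N).2 hNne
          exact Finite.one_lt_card
        have h2 : 0 < N.index := Nat.pos_of_ne_zero (Subgroup.index_ne_zero_of_finite)
        nlinarith
    exact Group.isSolvable_of_ker_le_range N.subtype (QuotientGroup.mk' N) (by simp)

end Cfsg.Agent.Lib.Helper9.Wie3
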