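import Mathlib
import Cfsg.Agent.S0144

set_option autoImplicit false

namespace Cfsg.Agent.Lib.Helper9.Small100

open Subgroup

universe u

/-- A simple group of order `p^a q^b` is cyclic. -/
theorem isCyclic_of_card_pq {G : Type u} [Group G] [Finite G] [IsSimpleGroup G] (p q a b : ℕ)
    (hp : p.Prime) (hq : q.Prime) (hcard : Nat.card G = p ^ a * q ^ b) : IsCyclic G := by
  have hprime : (Nat.card G).Prime := by
    apply Cfsg.Agent.S0144.prime_card_of_simple p q hp hq G
    intro r hr hdvd
    rw [hcard] at hdvd
    rcases (Nat.Prime.dvd_mul hr).1 hdvd with h | h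
    · exact Or.inl ((Nat.prime_dvd_prime_iff_eq hr hp).1 (hr.dvd_of_dvd_pow h))
    · exact Or.inr ((Nat.prime_dvd_prime_iff_eq hr hq).1 (hr.dvd_of_dvd_pow h))
  have : Fact (Nat.card G).Prime := ⟨hprime⟩
  exact isCyclic_of_prime_card rfl

theorem sylow_card_eq {G : Type u} [Group G] [Finite G] (p k m : ℕ) [hp : Fact p.Prime]
    (h : Nat.card G = p ^ k * m) (hm : ¬ p ∣ m) (P : Sylow p G) : Nat.card P = p ^ k := by
  have hm0 : m ≠ 0 := by rintro rfl; exact hm (dvd_zero p)
  rw [Sylow.card_eq_multiplicity, h, Nat.factorization_mul (pow_ne_zero _ hp.1.ne_zero) hm0,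
    Finsupp.add_apply, Nat.Prime.factorization_pow hp.1, Finsupp.single_eq_same,
    Nat.factorization_eq_zero_of_not_dvd hm, add_zero]

/-- A group of order `2m`, `m > 1` odd, is not simple. -/
theorem not_simple_two_mul_odd {G : Type u} [Group G] [Finite G] (m : ℕ) (hm1 : 1 < m)
    (hodd : ¬ 2 ∣ m) (hcard : Nat.card G = 2 * m) : ¬ IsSimpleGroup G := by
  intro hsimp
  have h2 : Fact (Nat.Prime 2) := ⟨Nat.prime_two⟩
  have hmin : (Nat.card G).minFac = 2 := by
    rw [hcard]
    exact (Nat.minFac_eq_two_iff _).2 (dvd_mul_right 2 m)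
  obtain ⟨P⟩ : Nonempty (Sylow 2 G) := inferInstance
  have hPcard : Nat.card P = 2 := by
    have := sylow_card_eq 2 1 m (by rw [hcard, pow_one]) hodd P
    rwa [pow_one] at this
  have hPcyc : IsCyclic P := isCyclic_of_prime_card hPcard
  have hcomp := IsCyclic.isComplement' hmin hPcyc
  have hKn : (MonoidHom.transferSylow P (hPcyc.normalizer_le_centralizer hmin)).ker.Normal :=
    inferInstance
  have hKcard := hcomp.card_mul
  have hPcard' : Nat.card (P : Subgroup G) = 2 := hPcard
  rw [hPcard', hcard] at hKcard
  have hK : Nat.card (MonoidHom.transferSylow P (hPcyc.normalizer_le_centralizer hmin)).ker = m := by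
    omega
  rcases hKn.eq_bot_or_eq_top with e | e
  · rw [e, Subgroup.card_bot] at hK
    omega
  · rw [e, Subgroup.card_top, hcard] at hK
    omega

/-- No simple group of order 84. -/
theorem not_simple_84 {G : Type u} [Group G] [Finite G] (hcard : Nat.card G = 84) :
    ¬ IsSimpleGroup G := by
  intro hsimp
  have h7 : Fact (Nat.Prime 7) := ⟨by norm_num⟩
  obtain ⟨P⟩ : Nonempty (Sylow 7 G) := inferInstance
  have hPcard : Nat.card P = 7 := by
    have := sylow_card_eq 7 1 12 (hcard.trans (by norm_num)) (by norm_num) P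
    rwa [pow_one] at this
  have hPcard' : Nat.card (P : Subgroup G) = 7 := hPcard
  have hidx : (P : Subgroup G).index = 12 := by
    have := (P : Subgroup G).card_mul_index
    rw [hPcard', hcard] at this
    omega
  have h1 : Nat.card (Sylow 7 G) ≡ 1 [MOD 7] := card_sylow_modEq_one 7 G
  have h2 : Nat.card (Sylow 7 G) ∣ 12 := hidx ▸ P.card_dvd_index
  have h3 : Nat.card (Sylow 7 G) = 1 := by
    have hle : Nat.card (Sylow 7 G) ≤ 12 := Nat.le_of_dvd (by norm_num) h2
    have hpos : 0 < Nat.card (Sylow 7 G) := Nat.card_pos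
    unfold Nat.ModEq at h1
    interval_cases (Nat.card (Sylow 7 G)) <;> simp_all
  have hsub : Subsingleton (Sylow 7 G) := (Nat.card_eq_one_iff_unique.1 h3).1
  have hPn : (P : Subgroup G).Normal := P.normal_of_subsingleton
  rcases hPn.eq_bot_or_eq_top with e | e
  · rw [e, Subgroup.card_bot] at hPcard'
    omega
  · rw [e, Subgroup.card_top, hcard] at hPcard'
    omega

/-- S0493. -/
theorem card_eq_60 {G : Type u} [Group G] [Finite G] [IsSimpleGroup G]
    (hG : ¬ IsCyclic G) (h : Nat.card G ≤ 100) : Nat.card G = 60 := by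
  obtain ⟨n, hn⟩ : ∃ n, Nat.card G = n := ⟨_, rfl⟩
  rw [hn] at h ⊢
  by_cases h60 : n = 60
  · exact h60
  · exfalso
    interval_cases n
    · exact absurd hn Nat.card_pos.ne'
    · exact absurd hn (Finite.one_lt_card (α := G)).ne'
    · exact absurd (isCyclic_of_card_pq 2 2 1 0 (by norm_num) (by norm_num) (hn.trans (by norm_num))) hG
    · exact absurd (isCyclic_of_card_pq 3 3 1 0 (by norm_num) (by norm_num) (hn.trans (by norm_num))) hG
    · exact absurd (isCyclic_of_card_pq 2 2 2 0 (by norm_num) (by norm_num) (hn.trans (by norm_num))) hG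
    · exact absurd (isCyclic_of_card_pq 5 5 1 0 (by norm_num) (by norm_num) (hn.trans (by norm_num))) hG
    · exact absurd (isCyclic_of_card_pq 2 3 1 1 (by norm_num) (by norm_num) (hn.trans (by norm_num))) hG
    · exact absurd (isCyclic_of_card_pq 7 7 1 0 (by norm_num) (by norm_num) (hn.trans (by norm_num))) hG
    · exact absurd (isCyclic_of_card_pq 2 2 3 0 (by norm_num) (by norm_num) (hn.trans (by norm_num))) hG
    · exact absurd (isCyclic_of_card_pq 3 3 2 0 (by norm_num) (by norm_num) (hn.trans (by norm_num))) hG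
    · exact absurd (isCyclic_of_card_pq 2 5 1 1 (by norm_num) (by norm_num) (hn.trans (by norm_num))) hG
    · exact absurd (isCyclic_of_card_pq 11 11 1 0 (by norm_num) (by norm_num) (hn.trans (by norm_num))) hG
    · exact absurd (isCyclic_of_card_pq 2 3 2 1 (by norm_num) (by norm_num) (hn.trans (by norm_num))) hG
    · exact absurd (isCyclic_of_card_pq 13 13 1 0 (by norm_num) (by norm_num) (hn.trans (by norm_num))) hG
    · exact absurd (isCyclic_of_card_pq 2 7 1 1 (by norm_num) (by norm_num) (hn.trans (by norm_num))) hG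
    · exact absurd (isCyclic_of_card_pq 3 5 1 1 (by norm_num) (by norm_num) (hn.trans (by norm_num))) hG
    · exact absurd (isCyclic_of_card_pq 2 2 4 0 (by norm_num) (by norm_num) (hn.trans (by norm_num))) hG
    · exact absurd (isCyclic_of_card_pq 17 17 1 0 (by norm_num) (by norm_num) (hn.trans (by norm_num))) hG
    · exact absurd (isCyclic_of_card_pq 2 3 1 2 (by norm_num) (by norm_num) (hn.trans (by norm_num))) hG
    · exact absurd (isCyclic_of_card_pq 19 19 1 0 (by norm_num) (by norm_num) (hn.trans (by norm_num))) hG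
    · exact absurd (isCyclic_of_card_pq 2 5 2 1 (by norm_num) (by norm_num) (hn.trans (by norm_num))) hG
    · exact absurd (isCyclic_of_card_pq 3 7 1 1 (by norm_num) (by norm_num) (hn.trans (by norm_num))) hG
    · exact absurd (isCyclic_of_card_pq 2 11 1 1 (by norm_num) (by norm_num) (hn.trans (by norm_num))) hG
    · exact absurd (isCyclic_of_card_pq 23 23 1 0 (by norm_num) (by norm_num) (hn.trans (by norm_num))) hG
    · exact absurd (isCyclic_of_card_pq 2 3 3 1 (by norm_num) (by norm_num) (hn.trans (by norm_num))) hG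
    · exact absurd (isCyclic_of_card_pq 5 5 2 0 (by norm_num) (by norm_num) (hn.trans (by norm_num))) hG
    · exact absurd (isCyclic_of_card_pq 2 13 1 1 (by norm_num) (by norm_num) (hn.trans (by norm_num))) hG
    · exact absurd (isCyclic_of_card_pq 3 3 3 0 (by norm_num) (by norm_num) (hn.trans (by norm_num))) hG
    · exact absurd (isCyclic_of_card_pq 2 7 2 1 (by norm_num) (by norm_num) (hn.trans (by norm_num))) hG
    · exact absurd (isCyclic_of_card_pq 29 29 1 0 (by norm_num) (by norm_num) (hn.trans (by norm_num))) hG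
    · exact absurd (inferInstance : IsSimpleGroup G) (not_simple_two_mul_odd 15 (by norm_num) (by decide) (hn.trans (by norm_num)))
    · exact absurd (isCyclic_of_card_pq 31 31 1 0 (by norm_num) (by norm_num) (hn.trans (by norm_num))) hG
    · exact absurd (isCyclic_of_card_pq 2 2 5 0 (by norm_num) (by norm_num) (hn.trans (by norm_num))) hG
    · exact absurd (isCyclic_of_card_pq 3 11 1 1 (by norm_num) (by norm_num) (hn.trans (by norm_num))) hG
    · exact absurd (isCyclic_of_card_pq 2 17 1 1 (by norm_num) (by norm_num) (hn.trans (by norm_num))) hG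
    · exact absurd (isCyclic_of_card_pq 5 7 1 1 (by norm_num) (by norm_num) (hn.trans (by norm_num))) hG
    · exact absurd (isCyclic_of_card_pq 2 3 2 2 (by norm_num) (by norm_num) (hn.trans (by norm_num))) hG
    · exact absurd (isCyclic_of_card_pq 37 37 1 0 (by norm_num) (by norm_num) (hn.trans (by norm_num))) hG
    · exact absurd (isCyclic_of_card_pq 2 19 1 1 (by norm_num) (by norm_num) (hn.trans (by norm_num))) hG
    · exact absurd (isCyclic_of_card_pq 3 13 1 1 (by norm_num) (by norm_num) (hn.trans (by norm_num))) hG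
    · exact absurd (isCyclic_of_card_pq 2 5 3 1 (by norm_num) (by norm_num) (hn.trans (by norm_num))) hG
    · exact absurd (isCyclic_of_card_pq 41 41 1 0 (by norm_num) (by norm_num) (hn.trans (by norm_num))) hG
    · exact absurd (inferInstance : IsSimpleGroup G) (not_simple_two_mul_odd 21 (by norm_num) (by decide) (hn.trans (by norm_num)))
    · exact absurd (isCyclic_of_card_pq 43 43 1 0 (by norm_num) (by norm_num) (hn.trans (by norm_num))) hG
    · exact absurd (isCyclic_of_card_pq 2 11 2 1 (by norm_num) (by norm_num) (hn.trans (by norm_num))) hG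
    · exact absurd (isCyclic_of_card_pq 3 5 2 1 (by norm_num) (by norm_num) (hn.trans (by norm_num))) hG
    · exact absurd (isCyclic_of_card_pq 2 23 1 1 (by norm_num) (by norm_num) (hn.trans (by norm_num))) hG
    · exact absurd (isCyclic_of_card_pq 47 47 1 0 (by norm_num) (by norm_num) (hn.trans (by norm_num))) hG
    · exact absurd (isCyclic_of_card_pq 2 3 4 1 (by norm_num) (by norm_num) (hn.trans (by norm_num))) hG
    · exact absurd (isCyclic_of_card_pq 7 7 2 0 (by norm_num) (by norm_num) (hn.trans (by norm_num))) hG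
    · exact absurd (isCyclic_of_card_pq 2 5 1 2 (by norm_num) (by norm_num) (hn.trans (by norm_num))) hG
    · exact absurd (isCyclic_of_card_pq 3 17 1 1 (by norm_num) (by norm_num) (hn.trans (by norm_num))) hG
    · exact absurd (isCyclic_of_card_pq 2 13 2 1 (by norm_num) (by norm_num) (hn.trans (by norm_num))) hG
    · exact absurd (isCyclic_of_card_pq 53 53 1 0 (by norm_num) (by norm_num) (hn.trans (by norm_num))) hG
    · exact absurd (isCyclic_of_card_pq 2 3 1 3 (by norm_num) (by norm_num) (hn.trans (by norm_num))) hG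
    · exact absurd (isCyclic_of_card_pq 5 11 1 1 (by norm_num) (by norm_num) (hn.trans (by norm_num))) hG
    · exact absurd (isCyclic_of_card_pq 2 7 3 1 (by norm_num) (by norm_num) (hn.trans (by norm_num))) hG
    · exact absurd (isCyclic_of_card_pq 3 19 1 1 (by norm_num) (by norm_num) (hn.trans (by norm_num))) hG
    · exact absurd (isCyclic_of_card_pq 2 29 1 1 (by norm_num) (by norm_num) (hn.trans (by norm_num))) hG
    · exact absurd (isCyclic_of_card_pq 59 59 1 0 (by norm_num) (by norm_num) (hn.trans (by norm_num))) hG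
    · exact h60 rfl
    · exact absurd (isCyclic_of_card_pq 61 61 1 0 (by norm_num) (by norm_num) (hn.trans (by norm_num))) hG
    · exact absurd (isCyclic_of_card_pq 2 31 1 1 (by norm_num) (by norm_num) (hn.trans (by norm_num))) hG
    · exact absurd (isCyclic_of_card_pq 3 7 2 1 (by norm_num) (by norm_num) (hn.trans (by norm_num))) hG
    · exact absurd (isCyclic_of_card_pq 2 2 6 0 (by norm_num) (by norm_num) (hn.trans (by norm_num))) hG
    · exact absurd (isCyclic_of_card_pq 5 13 1 1 (by norm_num) (by norm_num) (hn.trans (by norm_num))) hG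
    · exact absurd (inferInstance : IsSimpleGroup G) (not_simple_two_mul_odd 33 (by norm_num) (by decide) (hn.trans (by norm_num)))
    · exact absurd (isCyclic_of_card_pq 67 67 1 0 (by norm_num) (by norm_num) (hn.trans (by norm_num))) hG
    · exact absurd (isCyclic_of_card_pq 2 17 2 1 (by norm_num) (by norm_num) (hn.trans (by norm_num))) hG
    · exact absurd (isCyclic_of_card_pq 3 23 1 1 (by norm_num) (by norm_num) (hn.trans (by norm_num))) hG
    · exact absurd (inferInstance : IsSimpleGroup G) (not_simple_two_mul_odd 35 (by norm_num) (by decide) (hn.trans (by norm_num)))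
    · exact absurd (isCyclic_of_card_pq 71 71 1 0 (by norm_num) (by norm_num) (hn.trans (by norm_num))) hG
    · exact absurd (isCyclic_of_card_pq 2 3 3 2 (by norm_num) (by norm_num) (hn.trans (by norm_num))) hG
    · exact absurd (isCyclic_of_card_pq 73 73 1 0 (by norm_num) (by norm_num) (hn.trans (by norm_num))) hG
    · exact absurd (isCyclic_of_card_pq 2 37 1 1 (by norm_num) (by norm_num) (hn.trans (by norm_num))) hG
    · exact absurd (isCyclic_of_card_pq 3 5 1 2 (by norm_num) (by norm_num) (hn.trans (by norm_num))) hG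
    · exact absurd (isCyclic_of_card_pq 2 19 2 1 (by norm_num) (by norm_num) (hn.trans (by norm_num))) hG
    · exact absurd (isCyclic_of_card_pq 7 11 1 1 (by norm_num) (by norm_num) (hn.trans (by norm_num))) hG
    · exact absurd (inferInstance : IsSimpleGroup G) (not_simple_two_mul_odd 39 (by norm_num) (by decide) (hn.trans (by norm_num)))
    · exact absurd (isCyclic_of_card_pq 79 79 1 0 (by norm_num) (by norm_num) (hn.trans (by norm_num))) hG
    · exact absurd (isCyclic_of_card_pq 2 5 4 1 (by norm_num) (by norm_num) (hn.trans (by norm_num))) hG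
    · exact absurd (isCyclic_of_card_pq 3 3 4 0 (by norm_num) (by norm_num) (hn.trans (by norm_num))) hG
    · exact absurd (isCyclic_of_card_pq 2 41 1 1 (by norm_num) (by norm_num) (hn.trans (by norm_num))) hG
    · exact absurd (isCyclic_of_card_pq 83 83 1 0 (by norm_num) (by norm_num) (hn.trans (by norm_num))) hG
    · exact absurd (inferInstance : IsSimpleGroup G) (not_simple_84 hn)
    · exact absurd (isCyclic_of_card_pq 5 17 1 1 (by norm_num) (by norm_num) (hn.trans (by norm_num))) hG
    · exact absurd (isCyclic_of_card_pq 2 43 1 1 (by norm_num) (by norm_num) (hn.trans (by norm_num))) hG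
    · exact absurd (isCyclic_of_card_pq 3 29 1 1 (by norm_num) (by norm_num) (hn.trans (by norm_num))) hG
    · exact absurd (isCyclic_of_card_pq 2 11 3 1 (by norm_num) (by norm_num) (hn.trans (by norm_num))) hG
    · exact absurd (isCyclic_of_card_pq 89 89 1 0 (by norm_num) (by norm_num) (hn.trans (by norm_num))) hG
    · exact absurd (inferInstance : IsSimpleGroup G) (not_simple_two_mul_odd 45 (by norm_num) (by decide) (hn.trans (by norm_num)))
    · exact absurd (isCyclic_of_card_pq 7 13 1 1 (by norm_num) (by norm_num) (hn.trans (by norm_num))) hG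
    · exact absurd (isCyclic_of_card_pq 2 23 2 1 (by norm_num) (by norm_num) (hn.trans (by norm_num))) hG
    · exact absurd (isCyclic_of_card_pq 3 31 1 1 (by norm_num) (by norm_num) (hn.trans (by norm_num))) hG
    · exact absurd (isCyclic_of_card_pq 2 47 1 1 (by norm_num) (by norm_num) (hn.trans (by norm_num))) hG
    · exact absurd (isCyclic_of_card_pq 5 19 1 1 (by norm_num) (by norm_num) (hn.trans (by norm_num))) hG
    · exact absurd (isCyclic_of_card_pq 2 3 5 1 (by norm_num) (by norm_num) (hn.trans (by norm_num))) hG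
    · exact absurd (isCyclic_of_card_pq 97 97 1 0 (by norm_num) (by norm_num) (hn.trans (by norm_num))) hG
    · exact absurd (isCyclic_of_card_pq 2 7 1 2 (by norm_num) (by norm_num) (hn.trans (by norm_num))) hG
    · exact absurd (isCyclic_of_card_pq 3 11 2 1 (by norm_num) (by norm_num) (hn.trans (by norm_num))) hG
    · exact absurd (isCyclic_of_card_pq 2 5 2 2 (by norm_num) (by norm_num) (hn.trans (by norm_num))) hG

end Cfsg.Agent.Lib.Helper9.Small100
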