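import Mathlib
import Cfsg.Prelude.Def_OddOrderLocal

set_option autoImplicit false

/-!
# S1363 (K ≠ 1 ⟹ U abelian and N_G(U) ⊄ M): statements of the pieces

Setting: `G` minimal simple of odd order, `M` maximal, `M = K U M_σ` a sigma-decomposition, `K ≠ 1`.
`E := K ⊔ U` is a complement of `M_σ` in `M`
(`(Cfsg.Agent.Lib.Helper90.BG14U.uset_of_decomp hG hM hKU).compl`).
Arithmetic of `U`: `Cfsg.Agent.Lib.Helper22.BG147N0.prime_of_U hG hM hKU hs hsU` gives, for a prime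
`s ∣ |U|`: `s ∣ |M|`, `s ∉ σ(M)`, `s ∉ κ(M)`.

Case A: some `r ∈ τ₂(M)` divides `|U|`.  Case B: no prime of `|U|` is in `τ₂(M)`.
-/

namespace Cfsg.Agent.Lib.Helper9.S63Stmt

universe u

/-- UAB.  Every `u ∈ U` is a commutator `v⁻¹ (k v k⁻¹)` for a fixed `k ∈ K`, `k ≠ 1`
(`Helper9.S65Core.exists_comm_of_fpf` with S1353), so `U ≤ ⁅E, E⁆`, abelian by `S1420.result … .2.1`. -/
def UAb : Prop :=
  ∀ {G : Type u} [Group G] [Finite G], Cfsg.IsMinSimpleOddOrder G →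
  ∀ (M K U : Subgroup G), IsCoatom M → Cfsg.IsSigmaDecomposition M K U → K ≠ ⊥ →
    IsMulCommutative U

/-- CASEA.  `r ∈ τ₂(M)`, `r ∣ |U|`.  `U` is a Hall subgroup of `M`, so it contains an elementary
abelian `A` of order `r²` (`Helper22.BG1210.exists_elemAb_sq_of_tau2` + Sylow inside `M`).
`S1418.result hG M hM E hE r hr A` : `C_G(A) ≤ M ∩ N_G(A) = E` and `N_G(A) ⊄ M`.  `C_G(A) = U`
(`c = k u`, `k` centralizes `A ≤ U`, S1353 ⟹ `k = 1`; `U` abelian).  So `N_G(A) ≤ N_G(U)`. -/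
def CaseA : Prop :=
  ∀ {G : Type u} [Group G] [Finite G], Cfsg.IsMinSimpleOddOrder G →
  ∀ (M K U : Subgroup G), IsCoatom M → Cfsg.IsSigmaDecomposition M K U → K ≠ ⊥ →
  ∀ r : ℕ, r ∈ Cfsg.tau2 M → r ∣ Nat.card U → ¬ Subgroup.normalizer (U : Set G) ≤ M

/-- CENTU.  Case B, `x ∈ U`, `x ≠ 1`: `C_M(x) = U`.  (1) `C_{M_σ}(x) = 1` by `S1432.result` (with
`x := y ∈ M_σ`, `x' := x`): the primes of `|x|` are neither in `κ(M)` nor in `τ₂(M)`.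
(2) `m = s u k ∈ C_M(x)` (`s ∈ M_σ`, `u ∈ U`, `k ∈ K`): `x (k x k⁻¹)⁻¹ ∈ M_σ ∩ U = 1`, so `k`
centralizes `x`, `k = 1` (S1353), then `s ∈ C_{M_σ}(x) = 1`. -/
def CentU : Prop :=
  ∀ {G : Type u} [Group G] [Finite G], Cfsg.IsMinSimpleOddOrder G →
  ∀ (M K U : Subgroup G), IsCoatom M → Cfsg.IsSigmaDecomposition M K U → K ≠ ⊥ →
  (∀ r : ℕ, r.Prime → r ∣ Nat.card U → r ∉ Cfsg.tau2 M) →
    ∀ x ∈ U, x ≠ 1 → M ⊓ Subgroup.centralizer ({x} : Set G) = U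

/-- UCYC.  Case B: the primes of `|U|` are in `τ₃(M)` (not in `σ(M)`; rank ≤ 1 since not in `τ₂`
and not in `α(M) ⊆ σ(M)`; divide `|M'|` as `U ≤ M'` by `S1365.result … .1`), no prime of `|K|` is
(`S1434.result … .1` : `κ(M) = τ₁(M)`), so `U` is a Hall `τ₃(M)`-subgroup of `E`: cyclic by
`S1415.result hG M hM E hE`. -/
def UCyc : Prop :=
  ∀ {G : Type u} [Group G] [Finite G], Cfsg.IsMinSimpleOddOrder G →
  ∀ (M K U : Subgroup G), IsCoatom M → Cfsg.IsSigmaDecomposition M K U → K ≠ ⊥ →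
  (∀ r : ℕ, r.Prime → r ∣ Nat.card U → r ∉ Cfsg.tau2 M) → IsCyclic U

/-- USIGS.  `K* := C_{M_σ}(K)`.  S1351 ⟹ `K*` cyclic, S1352 ⟹ `U*` with a sigma-decomposition
`(Mstar, K*, U*)`; `S1434.result` applied to `(Mstar, K*, U*)` and `M` (its two hypotheses are
`hKst` rewritten and `hKU.hall`) gives `IsPiHallOf (σ Mstar) K M`; `r ∣ |U| ∣ K.relIndex M`. -/
def USigS : Prop :=
  ∀ {G : Type u} [Group G] [Finite G], Cfsg.IsMinSimpleOddOrder G →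
  ∀ (M K U : Subgroup G), IsCoatom M → Cfsg.IsSigmaDecomposition M K U → K ≠ ⊥ →
  ∀ Mstar : Subgroup G, IsCoatom Mstar →
    K = Cfsg.sigmaCore Mstar ⊓ Subgroup.centralizer
      ((Cfsg.sigmaCore M ⊓ Subgroup.centralizer (K : Set G) : Subgroup G) : Set G) →
    Cfsg.IsPiHallOf (Cfsg.kappa Mstar) (Cfsg.sigmaCore M ⊓ Subgroup.centralizer (K : Set G)) Mstar →
    ∀ r : ℕ, r.Prime → r ∣ Nat.card U → r ∉ Cfsg.sigma Mstar

/-- NILP.  `N` maximal, `r ∈ σ(N)`, `r ∣ |U|`.  `r ∉ σ(M)`, so `N` is not conjugate to `M`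
(`Helper57.BG14TAU2.sigma_conj`) and `σ(N) ∩ σ(M) = ∅` (`S1378.result hG … .2`).  `Mstar` from
`S1366.result`; `N` is not conjugate to `Mstar` (USIGS).  `S1369.result … .2` ⟹ `κ(N) = ∅`.
S1352 with `K_N = ⊥` ⟹ `U_N`; `U_N ≠ ⊥` (else `N = N_σ ≤ N' < N`);
`Helper22.BG147N0.nilpotent_of_U_ne_bot`. -/
def NilP : Prop :=
  ∀ {G : Type u} [Group G] [Finite G], Cfsg.IsMinSimpleOddOrder G →
  ∀ (M K U : Subgroup G), IsCoatom M → Cfsg.IsSigmaDecomposition M K U → K ≠ ⊥ →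
  ∀ N : Subgroup G, IsCoatom N → ∀ r : ℕ, r ∈ Cfsg.sigma N → r ∣ Nat.card U →
    Group.IsNilpotent (Cfsg.sigmaCore N) ∧ N ≠ M ∧ ∀ q ∈ Cfsg.sigma N, q ∉ Cfsg.sigma M

/-- POW (abstract).  Commuting elements of coprime orders are powers of their product. -/
def Pow : Prop :=
  ∀ {G : Type u} [Group G] [Finite G] (x ρ : G), x * ρ = ρ * x →
    (orderOf x).Coprime (orderOf ρ) →
    x ∈ Subgroup.zpowers (x * ρ) ∧ ρ ∈ Subgroup.zpowers (x * ρ)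

/-- CYCNORM (abstract).  A subgroup of a cyclic subgroup `V` is normalized by `N_G(V)` (it is the
only subgroup of `V` of its order). -/
def CycNorm : Prop :=
  ∀ {G : Type u} [Group G] [Finite G] (V A : Subgroup G), IsCyclic V → A ≤ V →
    Subgroup.normalizer (V : Set G) ≤ Subgroup.normalizer (A : Set G)

/-- NORMCOND (abstract).  Normalizer condition in a nilpotent subgroup `Q`
(`Group.normalizerCondition_of_isNilpotent` in `↥Q`). -/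
def NormCond : Prop :=
  ∀ {G : Type u} [Group G] [Finite G] (Q V : Subgroup G), Group.IsNilpotent Q → V ≤ Q → V ≠ Q →
    ∃ g ∈ Q, g ∉ V ∧ g ∈ Subgroup.normalizer (V : Set G)

/-- TILDESPLIT.  `g = y (a r) y⁻¹`, `a ∈ N₀_σ ∖ 1`, `r ∈ R(a)`: take `N := N₀^y`, `x := y a y⁻¹`,
`ρ := y r y⁻¹` (`Helper73.BG14Final2.suppConj`, `Helper47.Syl.isCoatom_map_conj`).  By
`Helper73.BG14Final.suppEq` and `gen`: `R(x) = 1` or `R(x) = C_{L_σ}(x)` with `L` not conjugate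
to `N`, so `σ(L) ∩ σ(N) = ∅` (`S1378.result hG … .2`) and the orders are coprime. -/
def TildeSplit : Prop :=
  ∀ {G : Type u} [Group G] [Finite G], Cfsg.IsMinSimpleOddOrder G →
  ∀ N₀ : Subgroup G, IsCoatom N₀ →
  ∀ g ∈ Cfsg.tildeOf N₀ ((Cfsg.sigmaCore N₀ : Set G) \ {1}),
    ∃ N : Subgroup G, IsCoatom N ∧ ∃ x ρ : G, x ∈ Cfsg.sigmaCore N ∧ x ≠ 1 ∧
      ρ ∈ Cfsg.supportR N x ∧ x * ρ = ρ * x ∧ (orderOf x).Coprime (orderOf ρ) ∧ g = x * ρ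

/-- NOTZ.  `u ∈ U`, `u ≠ 1`.  `S1379.result hG … .2.2 M K U hM hKU hK1`, first part: `u` is in some
`tildeOf N₀ …` or `u = y z y⁻¹` with `z ∈ K K* ∖ (K ∪ K*)`.  The latter is impossible: `z = k c`,
`k ∈ K ∖ 1`, `c ∈ K*` commuting of coprime orders, so a prime of `|K|` divides `|z| = |u| ∣ |U|`,
but `|U|` and `|K|` are coprime. -/
def NotZ : Prop :=
  ∀ {G : Type u} [Group G] [Finite G], Cfsg.IsMinSimpleOddOrder G →
  ∀ (M K U : Subgroup G), IsCoatom M → Cfsg.IsSigmaDecomposition M K U → K ≠ ⊥ →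
  ∀ u ∈ U, u ≠ 1 →
    ∃ N₀ : Subgroup G, IsCoatom N₀ ∧ u ∈ Cfsg.tildeOf N₀ ((Cfsg.sigmaCore N₀ : Set G) \ {1})

/-- STEP1.  Suppose `N_G(U') ≤ M`.  NILP (a prime of `|U'|` is in `σ(N)`): `N_σ` nilpotent,
`N ≠ M`, `σ(N) ∩ σ(M) = ∅`.  `V := N_σ ∩ N_G(U') ≤ M` is nilpotent with primes outside `σ(M)`:
abelian (`S1420.result … .1`); `V` contains a generator `x` of `U'`, so `V ≤ C_M(x) = U` is
cyclic; CYCNORM ⟹ `N_{N_σ}(V) ≤ V`, NORMCOND ⟹ `V = N_σ`; CYCNORM ⟹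
`N ≤ N_G(N_σ) ≤ N_G(U') ≤ M`, so `N = M`: contradiction. -/
def Step1 : Prop :=
  ∀ {G : Type u} [Group G] [Finite G], Cfsg.IsMinSimpleOddOrder G →
  ∀ (M K U : Subgroup G), IsCoatom M → Cfsg.IsSigmaDecomposition M K U → K ≠ ⊥ →
  IsCyclic U → (∀ x ∈ U, x ≠ 1 → M ⊓ Subgroup.centralizer ({x} : Set G) = U) →
  ∀ N : Subgroup G, IsCoatom N → ∀ U' : Subgroup G, U' ≤ U → U' ≠ ⊥ → U' ≤ Cfsg.sigmaCore N →
    ¬ Subgroup.normalizer (U' : Set G) ≤ M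

/-- STEP2.  `ρ ≠ 1` ⟹ `C_G(x) ⊄ N` (`suppEq`); `gen` ⟹ `L` the only maximal subgroup over
`C_G(x)`, `L_σ` nilpotent, `R(x) = Q := C_{L_σ}(x)`.  Suppose `N_G(⟨x⟩⟨ρ⟩) ≤ M`.
If `Q ≤ M`: `Q ≤ C_M(x) = U` is cyclic; `N_G(⟨x⟩) ≤ N_G(C_G(x)) ≤ L` normalizes `Q`, hence `⟨ρ⟩`
(CYCNORM), so `N_G(⟨x⟩) ≤ N_G(⟨x⟩⟨ρ⟩) ≤ M`: contradiction.
If `Q ⊄ M`: NORMCOND for `Q ∩ M < Q` gives `g ∈ Q ∖ M` normalizing `Q ∩ M ≤ C_M(x) = U` (cyclic,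
contains `ρ`), so `g` normalizes `⟨ρ⟩` and centralizes `x`: `g ∈ N_G(⟨x⟩⟨ρ⟩) ≤ M`: contradiction. -/
def Step2 : Prop :=
  ∀ {G : Type u} [Group G] [Finite G], Cfsg.IsMinSimpleOddOrder G →
  ∀ (M K U : Subgroup G), IsCoatom M → Cfsg.IsSigmaDecomposition M K U → K ≠ ⊥ →
  IsCyclic U → (∀ x ∈ U, x ≠ 1 → M ⊓ Subgroup.centralizer ({x} : Set G) = U) →
  ∀ N : Subgroup G, IsCoatom N → ∀ x ρ : G, x ∈ Cfsg.sigmaCore N → x ≠ 1 →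
    ρ ∈ Cfsg.supportR N x → ρ ≠ 1 → x ∈ U → ρ ∈ U →
    ¬ Subgroup.normalizer ((Subgroup.zpowers x : Subgroup G) : Set G) ≤ M →
    ¬ Subgroup.normalizer ((Subgroup.zpowers x ⊔ Subgroup.zpowers ρ : Subgroup G) : Set G) ≤ M

/-- CASEB.  Strong induction on `|U'|` over the subgroups `1 ≠ U' ≤ U` (all cyclic, UCYC):
`¬ N_G(U') ≤ M`.  `u'` a generator; NOTZ + TILDESPLIT + POW: `u' = x ρ` with `x, ρ ∈ ⟨u'⟩`.
`ρ = 1`: STEP1.  `ρ ≠ 1`: `1 ≠ ⟨x⟩ < U'` (coprime orders), induction + STEP2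
(`⟨x⟩ ⊔ ⟨ρ⟩ = U'`). -/
def CaseB : Prop :=
  ∀ {G : Type u} [Group G] [Finite G], Cfsg.IsMinSimpleOddOrder G →
  ∀ (M K U : Subgroup G), IsCoatom M → Cfsg.IsSigmaDecomposition M K U → K ≠ ⊥ → U ≠ ⊥ →
  (∀ r : ℕ, r.Prime → r ∣ Nat.card U → r ∉ Cfsg.tau2 M) →
    ¬ Subgroup.normalizer (U : Set G) ≤ M

end Cfsg.Agent.Lib.Helper9.S63Stmt
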