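import Mathlib
import Cfsg.Agent.Lib.Helper70.PNilp
import Cfsg.Agent.Lib.Helper23.Transitivity

set_option autoImplicit false

/-
helper9: general lemmas on groups having normal `p`-complements for all primes outside a set
`π`: a normal Hall `π`-subgroup with nilpotent quotient, nilpotent Hall `π'`-subgroups
(Schur–Zassenhaus), and a criterion for `O_π` to be a Hall subgroup.
-/

namespace Cfsg.Agent.Lib.Helper9.BG10e

open Cfsg.Agent.Lib.Helper70.PNilp Cfsg.Agent.Lib.Helper23.Transitivity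

/-- A subgroup of order coprime to the index of a normal subgroup lies in it. -/
theorem le_of_coprime_index {X : Type*} [Group X] [Finite X] (K : Subgroup X) [K.Normal]
    (L : Subgroup X) (h : (Nat.card L).Coprime K.index) : L ≤ K := by
  have h1 : Nat.card (L.map (QuotientGroup.mk' K)) ∣ Nat.card L := Subgroup.card_map_dvd _ _
  have h2 : Nat.card (L.map (QuotientGroup.mk' K)) ∣ K.index := by
    rw [Subgroup.index_eq_card]; exact Subgroup.card_subgroup_dvd_card _
  have h3 : Nat.card (L.map (QuotientGroup.mk' K)) = 1 := Nat.eq_one_of_dvd_coprimes h h1 h2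
  have h5 := (Subgroup.map_eq_bot_iff L).mp (Subgroup.card_eq_one.mp h3)
  rwa [QuotientGroup.ker_mk'] at h5

/-- If `X` has a normal `p`-complement for every prime `p ∉ π` dividing its order, then `X` has
a normal Hall `π`-subgroup with nilpotent quotient. -/
theorem exists_normal_hall {X : Type*} [Group X] [Finite X] (π : Set ℕ)
    (h : ∀ p : ℕ, p.Prime → p ∣ Nat.card X → p ∉ π → Cfsg.HasNormalPComplement p X) :
    ∃ (K : Subgroup X) (_ : K.Normal), (∀ q : ℕ, q.Prime → q ∣ Nat.card K → q ∈ π) ∧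
      (∀ q : ℕ, q.Prime → q ∣ K.index → q ∉ π) ∧ Group.IsNilpotent (X ⧸ K) := by
  classical
  have hex : ∀ p : ℕ, ∃ N : Subgroup X, N.Normal ∧ (∃ k : ℕ, N.index = p ^ k) ∧
      (p.Prime → p ∣ Nat.card X → p ∉ π → (Nat.card N).Coprime p) ∧ (p ∈ π → N = ⊤) := by
    intro p
    by_cases hp : p.Prime ∧ p ∣ Nat.card X ∧ p ∉ π
    · have : Fact p.Prime := ⟨hp.1⟩
      obtain ⟨N, hN, hcop, k, hk⟩ := npc_iff.mp (h p hp.1 hp.2.1 hp.2.2)
      exact ⟨N, hN, ⟨k, hk⟩, fun _ _ _ => hcop, fun hπ => absurd hπ hp.2.2⟩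
    · by_cases hpπ : p ∈ π
      · exact ⟨⊤, inferInstance, ⟨0, by simp⟩, fun h1 h2 h3 => absurd ⟨h1, h2, h3⟩ hp,
          fun _ => rfl⟩
      · exact ⟨⊤, inferInstance, ⟨0, by simp⟩, fun h1 h2 h3 => absurd ⟨h1, h2, h3⟩ hp,
          fun hπ => absurd hπ hpπ⟩
  choose N hNn hNi hNc hNtop using hex
  have : ∀ p, (N p).Normal := hNn
  obtain ⟨φ, hφ⟩ : ∃ φ : X →* ∀ p : (Nat.card X).primeFactors, X ⧸ N p,
      ∀ x p, φ x p = QuotientGroup.mk' (N p) x :=
    ⟨MonoidHom.pi (fun p => QuotientGroup.mk' (N p)), fun x p => rfl⟩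
  have hker : ∀ x, x ∈ φ.ker → ∀ p ∈ (Nat.card X).primeFactors, x ∈ N p := by
    intro x hx p hp
    have h1 : φ x ⟨p, hp⟩ = 1 := by rw [MonoidHom.mem_ker.mp hx]; rfl
    rw [hφ] at h1
    exact (QuotientGroup.eq_one_iff x).mp h1
  have hnil : ∀ p : (Nat.card X).primeFactors, Group.IsNilpotent (X ⧸ N p) := by
    intro p
    have : Fact (p : ℕ).Prime := ⟨Nat.prime_of_mem_primeFactors p.2⟩
    obtain ⟨k, hk⟩ := hNi p
    exact (IsPGroup.of_card (by rw [← Subgroup.index_eq_card, hk])).isNilpotent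
  refine ⟨φ.ker, inferInstance, ?_, ?_, ?_⟩
  · intro q hq hqK
    by_contra hqπ
    have hqX : q ∣ Nat.card X := hqK.trans (Subgroup.card_subgroup_dvd_card _)
    have hqm : q ∈ (Nat.card X).primeFactors :=
      Nat.mem_primeFactors.mpr ⟨hq, hqX, Nat.card_pos.ne'⟩
    have hle : φ.ker ≤ N q := fun x hx => hker x hx q hqm
    have hcop := hNc q hq hqX hqπ
    have hd : q ∣ Nat.card (N q) := hqK.trans (Subgroup.card_dvd_of_le hle)
    exact hq.one_lt.ne' (Nat.Coprime.eq_one_of_dvd hcop.symm hd)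
  · intro q hq hqK hqπ
    have h1 : φ.ker.index = Nat.card φ.range := Subgroup.index_ker φ
    have h2 : Nat.card φ.range ∣ Nat.card (∀ p : (Nat.card X).primeFactors, X ⧸ N p) :=
      Subgroup.card_subgroup_dvd_card _
    rw [Nat.card_pi] at h2
    rw [h1] at hqK
    obtain ⟨p, -, hp⟩ := (Nat.Prime.prime hq).exists_mem_finset_dvd (hqK.trans h2)
    obtain ⟨k, hk⟩ := hNi p
    rw [← Subgroup.index_eq_card, hk] at hp
    have hqp : q = p :=
      (Nat.prime_dvd_prime_iff_eq hq (Nat.prime_of_mem_primeFactors p.2)).mp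
        (hq.dvd_of_dvd_pow hp)
    have htop : N p = ⊤ := hNtop p (hqp ▸ hqπ)
    rw [← hk, htop, Subgroup.index_top] at hp
    exact hq.one_lt.ne' (Nat.dvd_one.mp hp)
  · have hpi : Group.IsNilpotent (∀ p : (Nat.card X).primeFactors, X ⧸ N p) :=
      Group.isNilpotent_pi
    refine Subgroup.isNilpotent_of_ker_le_center (QuotientGroup.kerLift φ) ?_
    rw [(MonoidHom.ker_eq_bot_iff _).mpr (QuotientGroup.kerLift_injective φ)]
    exact bot_le

/-- If `X` has a normal `p`-complement for every prime `p ∉ π` dividing its order, then `X` has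
a nilpotent Hall `π'`-subgroup. -/
theorem exists_nilpotent_hall {X : Type*} [Group X] [Finite X] (π : Set ℕ)
    (h : ∀ p : ℕ, p.Prime → p ∣ Nat.card X → p ∉ π → Cfsg.HasNormalPComplement p X) :
    ∃ H : Subgroup X, (∀ q : ℕ, q.Prime → q ∣ Nat.card H → q ∉ π) ∧
      (∀ q : ℕ, q.Prime → q ∣ H.index → q ∈ π) ∧ Group.IsNilpotent H := by
  obtain ⟨K, hKn, hK1, hK2, hK3⟩ := exists_normal_hall π h
  have hcop : (Nat.card K).Coprime K.index :=
    Nat.coprime_of_dvd (fun q hq h1 h2 => hK2 q hq h2 (hK1 q hq h1))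
  obtain ⟨H, hH⟩ := Subgroup.exists_right_complement'_of_coprime hcop
  refine ⟨H, ?_, ?_, ?_⟩
  · intro q hq hqH
    rw [← hH.symm.index_eq_card] at hqH
    exact hK2 q hq hqH
  · intro q hq hqH
    rw [hH.index_eq_card] at hqH
    exact hK1 q hq hqH
  · refine Subgroup.isNilpotent_of_ker_le_center ((QuotientGroup.mk' K).comp H.subtype) ?_
    have hbot : ((QuotientGroup.mk' K).comp H.subtype).ker = ⊥ := by
      rw [eq_bot_iff]
      intro x hx
      rw [MonoidHom.mem_ker, MonoidHom.comp_apply, QuotientGroup.mk'_apply,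
        QuotientGroup.eq_one_iff] at hx
      have h1 : (x : X) ∈ K ⊓ H := ⟨hx, x.2⟩
      rw [hH.disjoint.eq_bot] at h1
      exact Subtype.ext (Subgroup.mem_bot.mp h1)
    rw [hbot]
    exact bot_le

/-- `O_π(X) ≤ D` for a normal subgroup `D` containing a Sylow `p`-subgroup of `X` for every
`p ∈ π`. -/
theorem piCore_le_of_sylow {X : Type*} [Group X] [Finite X] (π : Set ℕ) (D : Subgroup X)
    [D.Normal] (h : ∀ p ∈ π, p.Prime → ∃ S : Sylow p X, (S : Subgroup X) ≤ D) :
    Cfsg.piCore π X ≤ D := by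
  apply le_of_coprime_index
  apply Nat.coprime_of_dvd
  intro q hq hq1 hq2
  have hqπ : q ∈ π := isPiNum_card_piCore π q hq hq1
  obtain ⟨S, hS⟩ := h q hqπ hq
  have : Fact q.Prime := ⟨hq⟩
  exact S.not_dvd_index (hq2.trans (Subgroup.index_dvd_of_le hS))

/-- If `X'` has normal `p`-complements for all `p ∉ π` and contains the Sylow `p`-subgroup
`S` of `X`, `p ∈ π`, then `p` does not divide the index of `O_π(X)`. -/
theorem not_dvd_index_piCore {X : Type*} [Group X] [Finite X] (π : Set ℕ)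
    (h1 : ∀ p : ℕ, p.Prime → p ∣ Nat.card (commutator X) → p ∉ π →
      Cfsg.HasNormalPComplement p ↥(commutator X))
    {p : ℕ} [Fact p.Prime] (hp : p ∈ π) (S : Sylow p X) (hS : (S : Subgroup X) ≤ commutator X) :
    ¬ p ∣ (Cfsg.piCore π X).index := by
  have hpp : p.Prime := Fact.out
  obtain ⟨K, hKn, hK1, hK2, -⟩ := exists_normal_hall π h1
  have hcop : (Nat.card K).Coprime K.index :=
    Nat.coprime_of_dvd (fun q hq h1 h2 => hK2 q hq h2 (hK1 q hq h1))
  have hK₁n : (K.map (commutator X).subtype).Normal := by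
    constructor
    rintro _ ⟨x, hx, rfl⟩ g
    have hmem : g * (x : X) * g⁻¹ ∈ commutator X :=
      (inferInstance : (commutator X).Normal).conj_mem _ x.2 g
    refine ⟨⟨_, hmem⟩, ?_, rfl⟩
    have hL : K.map (MulAut.conjNormal g : ↥(commutator X) ≃* ↥(commutator X)).toMonoidHom ≤ K := by
      apply le_of_coprime_index
      rw [Subgroup.card_map_of_injective (MulEquiv.injective _)]
      exact hcop
    apply hL
    exact ⟨x, hx, Subtype.ext (by simp [MulAut.conjNormal_apply])⟩
  have hK₁le : K.map (commutator X).subtype ≤ Cfsg.piCore π X := by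
    unfold Cfsg.piCore
    apply le_sSup
    refine ⟨hK₁n, fun q hq hqK => hK1 q hq ?_⟩
    rwa [Subgroup.card_map_of_injective (Subgroup.subtype_injective _)] at hqK
  have hSK : (S : Subgroup X) ≤ K.map (commutator X).subtype := by
    have h2 : ((S : Subgroup X).subgroupOf (commutator X)) ≤ K := by
      apply le_of_coprime_index
      have e : Nat.card ((S : Subgroup X).subgroupOf (commutator X)) = Nat.card (S : Subgroup X) :=
        Nat.card_congr (Subgroup.subgroupOfEquivOfLe hS).toEquiv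
      obtain ⟨n, hn⟩ := S.2.exists_card_eq
      rw [e, hn]
      apply Nat.Coprime.pow_left
      rw [Nat.Prime.coprime_iff_not_dvd hpp]
      exact fun hd => hK2 p hpp hd hp
    intro x hx
    exact ⟨⟨x, hS hx⟩, h2 (Subgroup.mem_subgroupOf.mpr hx), rfl⟩
  exact fun hd => S.not_dvd_index (hd.trans (Subgroup.index_dvd_of_le (hSK.trans hK₁le)))

end Cfsg.Agent.Lib.Helper9.BG10e
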