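import Mathlib
import Cfsg.Prelude.Def_Transfer
import Cfsg.Agent.Lib.Helper9.MNN2

set_option autoImplicit false

namespace Cfsg.Agent.Lib.Helper9.MNN3

open Subgroup Cfsg.Agent.Lib.Helper9.MNN2

universe u

/-- An element of order prime to `q` normalizing an abelian `q`-group `Q` and centralizing
`Ω₁(Q)` centralizes `Q`. -/
theorem commute_of_commute_omega {G : Type u} [Group G] (q : ℕ) (Q : Subgroup G)
    [hQn : Q.Normal] (hQc : ∀ a ∈ Q, ∀ b ∈ Q, a * b = b * a) (x : G)
    (hx : (orderOf x).Coprime q) (hΩ : ∀ b ∈ Q, b ^ q = 1 → x * b = b * x) :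
    ∀ (k : ℕ), ∀ a ∈ Q, a ^ (q ^ k) = 1 → x * a = a * x := by
  intro k
  induction k with
  | zero => intro a _ ha; simp at ha; simp [ha]
  | succ k ih =>
    intro a haQ ha
    have h1 : x * a ^ q = a ^ q * x :=
      ih (a ^ q) (Q.pow_mem haQ q) (by rw [← pow_mul, ← pow_succ']; exact ha)
    obtain ⟨b, hb⟩ : ∃ b, b = a⁻¹ * (x * a * x⁻¹) := ⟨_, rfl⟩
    have hbQ : b ∈ Q := hb ▸ Q.mul_mem (Q.inv_mem haQ) (hQn.conj_mem a haQ x)
    have hbq : b ^ q = 1 := by
      have hc : Commute a⁻¹ (x * a * x⁻¹) := hQc _ (Q.inv_mem haQ) _ (hQn.conj_mem a haQ x)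
      rw [hb, hc.mul_pow, conj_pow, h1]
      group
    have hxb : Commute x b := hΩ b hbQ hbq
    have hxa : x * a = a * b * x := by rw [hb]; group
    have hj : ∀ j : ℕ, x ^ j * a = a * b ^ j * x ^ j := by
      intro j
      induction j with
      | zero => simp
      | succ j ihj =>
        calc x ^ (j + 1) * a = x * (x ^ j * a) := by rw [pow_succ', mul_assoc]
          _ = x * (a * b ^ j * x ^ j) := by rw [ihj]
          _ = (x * a) * b ^ j * x ^ j := by group
          _ = a * b * x * b ^ j * x ^ j := by rw [hxa]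
          _ = a * b * (x * b ^ j) * x ^ j := by group
          _ = a * b * (b ^ j * x) * x ^ j := by rw [(hxb.pow_right j).eq]
          _ = a * b ^ (j + 1) * x ^ (j + 1) := by rw [pow_succ', pow_succ']; group
    have hbn : b ^ orderOf x = 1 := by
      have := hj (orderOf x)
      rw [pow_orderOf_eq_one, one_mul, mul_one] at this
      exact (mul_eq_left.1 this.symm)
    have hb1 : b = 1 := by
      have d1 : orderOf b ∣ q := orderOf_dvd_of_pow_eq_one hbq
      have d2 : orderOf b ∣ orderOf x := orderOf_dvd_of_pow_eq_one hbn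
      exact orderOf_eq_one_iff.1 (Nat.eq_one_of_dvd_coprimes hx d2 d1)
    rw [hxa, hb1, mul_one]

theorem isNilpotent_of_isMulCommutative {H : Type u} [Group H] (h : IsMulCommutative H) :
    Group.IsNilpotent H :=
  ⟨⟨1, Subgroup.upperCentralSeries_one_eq_top_iff.2 h⟩⟩

/-- Miller–Moreno: minimal non-abelian groups. -/
theorem minimal_non_abelian {G : Type u} [Group G] [Finite G] (hna : ¬ IsMulCommutative G)
    (h : ∀ H : Subgroup G, H ≠ ⊤ → IsMulCommutative H) :
    (∃ p : ℕ, p.Prime ∧ IsPGroup p G) ∨ ∃ p q : ℕ, p.Prime ∧ q.Prime ∧ p ≠ q ∧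
      ∃ (P : Sylow p G) (Q : Sylow q G), IsCyclic (P : Subgroup G) ∧ (Q : Subgroup G).Normal ∧
        Cfsg.IsElementaryAbelian q (Q : Subgroup G) ∧ (P : Subgroup G) ⊔ Q = ⊤ := by
  have hnilsub : ∀ H : Subgroup G, H ≠ ⊤ → Group.IsNilpotent H :=
    fun H hH => isNilpotent_of_isMulCommutative (h H hH)
  by_cases hnil : Group.IsNilpotent G
  · left
    by_contra hcon
    push Not at hcon
    apply hna
    rw [← Subgroup.center_eq_top_iff]
    apply eq_top_of_forall_sylow_le
    intro r hr
    obtain ⟨R⟩ : Nonempty (Sylow r G) := inferInstance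
    refine ⟨R, ?_⟩
    have hRtop : (R : Subgroup G) ≠ ⊤ := by
      intro e
      apply hcon r hr.1
      intro g
      obtain ⟨k, hk⟩ := R.isPGroup' ⟨g, by rw [e]; trivial⟩
      exact ⟨k, by simpa [Subtype.ext_iff] using hk⟩
    have hRc := h R hRtop
    intro x hx
    have hC : centralizer ({x} : Set G) = ⊤ := by
      apply eq_top_of_forall_sylow_le
      intro s hs
      obtain ⟨S⟩ : Nonempty (Sylow s G) := inferInstance
      refine ⟨S, ?_⟩
      intro y hy
      rw [mem_centralizer_iff]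
      intro z hz
      rw [Set.mem_singleton_iff] at hz
      subst hz
      by_cases hrs : r = s
      · subst hrs
        have hS : S = R := (Sylow.unique_of_normal R inferInstance).uniq S ▸
          ((Sylow.unique_of_normal R inferInstance).uniq R).symm
        subst hS
        have := mul_comm' (⟨z, hx⟩ : (S : Subgroup G)) ⟨y, hy⟩
        simpa [Subtype.ext_iff] using this
      · exact (Subgroup.commute_of_normal_of_disjoint (R : Subgroup G) (S : Subgroup G)
          inferInstance inferInstance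
          (IsPGroup.disjoint_of_ne r s hrs _ _ R.isPGroup' S.isPGroup') z y hx hy).eq
    rw [mem_center_iff]
    intro g
    have hg : g ∈ centralizer ({x} : Set G) := by rw [hC]; trivial
    exact (mem_centralizer_iff.1 hg x rfl).symm
  · right
    obtain ⟨p, q, hp, hq, hpq, P, Q, hc, hn, hs, hPQ⟩ := structure_of_minimal hnil hnilsub
    have hfp : Fact p.Prime := ⟨hp⟩
    have hfq : Fact q.Prime := ⟨hq⟩
    have hdisj : Disjoint (P : Subgroup G) (Q : Subgroup G) :=
      IsPGroup.disjoint_of_ne p q hpq _ _ P.isPGroup' Q.isPGroup'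
    have hQtop : (Q : Subgroup G) ≠ ⊤ := by
      intro e
      apply hPQ
      have hPbot : (P : Subgroup G) = ⊥ := by
        have := hdisj.eq_bot
        rw [e, inf_top_eq] at this
        exact this
      rw [hPbot]; exact bot_le
    have hQc := h Q hQtop
    have hQcomm : ∀ a ∈ (Q : Subgroup G), ∀ b ∈ (Q : Subgroup G), a * b = b * a := by
      intro a ha b hb
      have := mul_comm' (⟨a, ha⟩ : (Q : Subgroup G)) ⟨b, hb⟩
      simpa [Subtype.ext_iff] using this
    refine ⟨p, q, hp, hq, hpq, P, Q, hc, hn, ⟨hQc, ?_⟩, hs⟩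
    -- Ω₁(Q)
    let Ω : Subgroup G :=
      { carrier := {a | a ∈ (Q : Subgroup G) ∧ a ^ q = 1}
        mul_mem' := by
          rintro a b ⟨ha, ha'⟩ ⟨hb, hb'⟩
          refine ⟨mul_mem ha hb, ?_⟩
          have hcab : Commute a b := hQcomm a ha b hb
          rw [hcab.mul_pow, ha', hb', one_mul]
        one_mem' := ⟨one_mem _, one_pow _⟩
        inv_mem' := by
          rintro a ⟨ha, ha'⟩
          exact ⟨inv_mem ha, by rw [inv_pow, ha', inv_one]⟩ }
    have hΩn : Ω.Normal := by
      constructor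
      rintro a ⟨ha, ha'⟩ g
      exact ⟨hn.conj_mem a ha g, by rw [conj_pow, ha']; group⟩
    have hΩtop : (P : Subgroup G) ⊔ Ω = ⊤ := by
      by_contra hne
      have hcomm := h _ hne
      apply hPQ
      intro x hx
      rw [mem_centralizer_iff]
      intro a ha
      obtain ⟨k, hk⟩ := Q.isPGroup' ⟨a, ha⟩
      have hk' : a ^ (q ^ k) = 1 := by simpa [Subtype.ext_iff] using hk
      have hxo : (orderOf x).Coprime q := by
        have := (P.isPGroup'.orderOf_coprime ((Nat.coprime_primes hp hq).2 hpq)) ⟨x, hx⟩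
        rwa [Subgroup.orderOf_mk] at this
      refine (commute_of_commute_omega q (Q : Subgroup G) hQcomm x hxo ?_ k a ha hk').symm
      intro b hb hb'
      have hxm : x ∈ (P : Subgroup G) ⊔ Ω := (le_sup_left : (P : Subgroup G) ≤ _) hx
      have hbm : b ∈ (P : Subgroup G) ⊔ Ω := (le_sup_right : Ω ≤ _) ⟨hb, hb'⟩
      have := mul_comm' (⟨x, hxm⟩ : ((P : Subgroup G) ⊔ Ω : Subgroup G)) ⟨b, hbm⟩
      simpa [Subtype.ext_iff] using this
    intro y hy
    have hy' : y ∈ (((P : Subgroup G) ⊔ Ω : Subgroup G) : Set G) := by rw [hΩtop]; trivial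
    rw [Subgroup.mul_normal] at hy'
    obtain ⟨a, ha, b, hb, rfl⟩ := Set.mem_mul.1 hy'
    have haQ : a ∈ (Q : Subgroup G) := by
      have : a = (a * b) * b⁻¹ := by group
      rw [this]; exact mul_mem hy (inv_mem hb.1)
    have ha1 : a = 1 := by
      have := hdisj.le_bot (mem_inf.2 ⟨ha, haQ⟩)
      simpa using this
    rw [ha1, one_mul]
    exact hb.2

end Cfsg.Agent.Lib.Helper9.MNN3
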