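import Mathlib
import Cfsg.Prelude.Def_SolvableStructure
import Cfsg.Agent.Lib.Helper9.MNN3
import Cfsg.Agent.Lib.Helper63.PFrattini
import Cfsg.Agent.S0011
import Cfsg.Agent.S0575

set_option autoImplicit false

namespace Cfsg.Agent.Lib.Helper9.MNN4

open Subgroup Cfsg.Agent.Lib.Helper9.MNN2 Cfsg.Agent.Lib.Helper9.MNN3
open scoped commutatorElement

universe u

/-- A normal Sylow `q`-subgroup contains every `q`-subgroup. -/
theorem le_of_normal_sylow {H : Type u} [Group H] [Finite H] (q : ℕ) [Fact q.Prime]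
    (Q : Sylow q H) (hQ : (Q : Subgroup H).Normal) (R : Subgroup H) (hR : IsPGroup q R) :
    R ≤ Q := by
  obtain ⟨Q', hQ'⟩ := hR.exists_le_sylow
  have hsub : Subsingleton (Sylow q H) := @Unique.instSubsingleton _ (Sylow.unique_of_normal Q hQ)
  have : Q' = Q := Subsingleton.elim _ _
  exact this ▸ hQ'

/-- If `Q` is an abelian normal Sylow `q`-subgroup of `H` with `H/Q` abelian, then every nilpotent
subgroup of `H` is abelian. -/
theorem isMulCommutative_of_nilpotent {H : Type u} [Group H] [Finite H] (q : ℕ)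
    [hq : Fact q.Prime] (Q : Sylow q H) (hQn : (Q : Subgroup H).Normal)
    (hQc : ∀ a ∈ (Q : Subgroup H), ∀ b ∈ (Q : Subgroup H), a * b = b * a)
    (hcomm : ∀ x y : H, x * y * x⁻¹ * y⁻¹ ∈ (Q : Subgroup H))
    (K : Subgroup H) (hK : Group.IsNilpotent K) : IsMulCommutative K := by
  rw [← Subgroup.center_eq_top_iff]
  apply eq_top_of_forall_sylow_le
  intro r hr
  obtain ⟨R⟩ : Nonempty (Sylow r K) := inferInstance
  refine ⟨R, ?_⟩
  intro x hx
  have hC : centralizer ({x} : Set K) = ⊤ := by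
    apply eq_top_of_forall_sylow_le
    intro s hs
    obtain ⟨S⟩ : Nonempty (Sylow s K) := inferInstance
    refine ⟨S, ?_⟩
    intro y hy
    rw [mem_centralizer_iff]
    intro z hz
    rw [Set.mem_singleton_iff] at hz
    subst hz
    by_cases hrs : r = s
    · subst hrs
      have hsub : Subsingleton (Sylow r K) :=
        @Unique.instSubsingleton _ (Sylow.unique_of_normal R inferInstance)
      have hS : S = R := Subsingleton.elim _ _
      subst hS
      by_cases hrq : r = q
      · subst hrq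
        have hRQ : (S : Subgroup K).map K.subtype ≤ Q :=
          le_of_normal_sylow r Q hQn _ (S.isPGroup'.map _)
        have hz' : (z : H) ∈ (Q : Subgroup H) := hRQ ⟨z, hx, rfl⟩
        have hy' : (y : H) ∈ (Q : Subgroup H) := hRQ ⟨y, hy, rfl⟩
        exact Subtype.ext (hQc _ hz' _ hy')
      · have hc1 : z * y * z⁻¹ * y⁻¹ ∈ (S : Subgroup K) :=
          mul_mem (mul_mem (mul_mem hx hy) (inv_mem hx)) (inv_mem hy)
        have hc2 : ((z * y * z⁻¹ * y⁻¹ : K) : H) ∈ (Q : Subgroup H) := by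
          have := hcomm (z : H) (y : H)
          simpa using this
        have hdis : Disjoint ((S : Subgroup K).map K.subtype) (Q : Subgroup H) :=
          IsPGroup.disjoint_of_ne r q hrq _ _ (S.isPGroup'.map _) Q.isPGroup'
        have hc3 : ((z * y * z⁻¹ * y⁻¹ : K) : H) = 1 := by
          have := hdis.le_bot (mem_inf.2 ⟨⟨_, hc1, rfl⟩, hc2⟩)
          simpa using this
        have hc4 : z * y * z⁻¹ * y⁻¹ = 1 := Subtype.ext hc3
        calc z * y = (z * y * z⁻¹ * y⁻¹) * (y * z) := by group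
          _ = y * z := by rw [hc4, one_mul]
    · exact (Subgroup.commute_of_normal_of_disjoint (R : Subgroup K) (S : Subgroup K)
        inferInstance inferInstance
        (IsPGroup.disjoint_of_ne r s hrs _ _ R.isPGroup' S.isPGroup') z y hx hy).eq
  rw [mem_center_iff]
  intro g
  have hg : g ∈ centralizer ({x} : Set K) := by rw [hC]; trivial
  exact (mem_centralizer_iff.1 hg x rfl).symm

/-- S0577. -/
theorem quotient_minimal_non_abelian {G : Type u} [Group G] [Finite G]
    (hG : Cfsg.IsMinimalNonNilpotent G) (q : ℕ) [hq : Fact q.Prime] (hqd : q ∣ Nat.card G)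
    (Q : Sylow q G) (hQ : (Q : Subgroup G).Normal) (D : Subgroup G) [hDn : D.Normal]
    (hD : D = (commutator ↥(Q : Subgroup G)).map (Q : Subgroup G).subtype) :
    ¬ IsMulCommutative (G ⧸ D) ∧ ∀ K : Subgroup (G ⧸ D), K ≠ ⊤ → IsMulCommutative K := by
  have hDQ : D ≤ Q := hD ▸ Subgroup.map_subtype_le _
  constructor
  · intro hab
    apply hG.1
    have hDΦ : D ≤ frattini G := by
      rw [hD]
      exact le_trans (Subgroup.map_mono
        (Cfsg.Agent.Lib.Helper63.PFrattini.commutator_le_frattini Q.isPGroup'))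
        (Cfsg.Agent.S0575.result (Q : Subgroup G))
    apply Cfsg.Agent.S0011.result
    have hnil : Group.IsNilpotent (G ⧸ D) := isNilpotent_of_isMulCommutative hab
    exact Group.nilpotent_of_surjective (QuotientGroup.map D (frattini G) (MonoidHom.id G) hDΦ) (by
      intro x
      obtain ⟨g, rfl⟩ := QuotientGroup.mk_surjective x
      exact ⟨(g : G ⧸ D), rfl⟩)
  · intro K hK
    obtain ⟨p, q₀, hp, hq₀, hpq, P, Q₀, hcyc, hQ₀n, hsup, hPQ⟩ := structure_of_minimal hG.1 hG.2
    have hfp : Fact p.Prime := ⟨hp⟩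
    have hfq₀ : Fact q₀.Prime := ⟨hq₀⟩
    have hqq : q = q₀ := by
      have hcard : Nat.card G = Nat.card (P : Subgroup G) * Nat.card (Q₀ : Subgroup G) := by
        rw [← Cfsg.Agent.Lib.Helper9.CS2.card_sup_of_coprime (P : Subgroup G) (Q₀ : Subgroup G)
          (IsPGroup.coprime_card_of_ne p q₀ hpq _ _ P.isPGroup' Q₀.isPGroup'), hsup,
          Subgroup.card_top]
      rw [hcard] at hqd
      rcases (Nat.Prime.dvd_mul hq.1).1 hqd with h | h
      · exfalso
        obtain ⟨k, hk⟩ := IsPGroup.iff_card.1 P.isPGroup'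
        rw [hk] at h
        have hqp : q = p := (Nat.prime_dvd_prime_iff_eq hq.1 hp).1 (hq.1.dvd_of_dvd_pow h)
        subst hqp
        have hsub : Subsingleton (Sylow q G) :=
          @Unique.instSubsingleton _ (Sylow.unique_of_normal Q hQ)
        have hPQ' : P = Q := Subsingleton.elim _ _
        have hPn : (P : Subgroup G).Normal := hPQ' ▸ hQ
        apply hPQ
        intro x hx
        rw [mem_centralizer_iff]
        intro y hy
        exact ((Subgroup.commute_of_normal_of_disjoint _ _ hPn hQ₀n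
          (IsPGroup.disjoint_of_ne q q₀ hpq _ _ P.isPGroup' Q₀.isPGroup') x y hx hy).eq).symm
      · obtain ⟨k, hk⟩ := IsPGroup.iff_card.1 Q₀.isPGroup'
        rw [hk] at h
        exact (Nat.prime_dvd_prime_iff_eq hq.1 hq₀).1 (hq.1.dvd_of_dvd_pow h)
    subst hqq
    have hsub : Subsingleton (Sylow q G) :=
      @Unique.instSubsingleton _ (Sylow.unique_of_normal Q hQ)
    have hQQ : Q₀ = Q := Subsingleton.elim _ _
    subst hQQ
    -- `G/Q` is abelian
    have hGQ : ∀ x y : G, x * y * x⁻¹ * y⁻¹ ∈ (Q₀ : Subgroup G) := by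
      intro x y
      have hx : x ∈ (((P : Subgroup G) ⊔ Q₀ : Subgroup G) : Set G) := by rw [hsup]; trivial
      have hy : y ∈ (((P : Subgroup G) ⊔ Q₀ : Subgroup G) : Set G) := by rw [hsup]; trivial
      rw [Subgroup.mul_normal] at hx hy
      obtain ⟨a₁, ha₁, b₁, hb₁, rfl⟩ := Set.mem_mul.1 hx
      obtain ⟨a₂, ha₂, b₂, hb₂, rfl⟩ := Set.mem_mul.1 hy
      have hcomm : a₁ * a₂ = a₂ * a₁ := by
        obtain ⟨c, hc⟩ := hcyc
        obtain ⟨i, hi⟩ := hc ⟨a₁, ha₁⟩
        obtain ⟨j, hj⟩ := hc ⟨a₂, ha₂⟩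
        have h3 := (Commute.zpow_zpow_self c i j).eq
        have hi' : c ^ i = ⟨a₁, ha₁⟩ := hi
        have hj' : c ^ j = ⟨a₂, ha₂⟩ := hj
        rw [hi', hj'] at h3
        exact congrArg Subtype.val h3
      have hφ : ∀ g : G, g ∈ (Q₀ : Subgroup G) ↔ QuotientGroup.mk' (Q₀ : Subgroup G) g = 1 :=
        fun g => (QuotientGroup.eq_one_iff g).symm
      rw [hφ]
      have hb₁' := (hφ b₁).1 hb₁
      have hb₂' := (hφ b₂).1 hb₂
      simp only [map_mul, map_inv, hb₁', hb₂', mul_one]
      have h4 : QuotientGroup.mk' (Q₀ : Subgroup G) a₁ * QuotientGroup.mk' (Q₀ : Subgroup G) a₂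
          = QuotientGroup.mk' (Q₀ : Subgroup G) a₂ * QuotientGroup.mk' (Q₀ : Subgroup G) a₁ := by
        rw [← map_mul, hcomm, map_mul]
      rw [h4]
      group
    -- the image of `Q` in `G ⧸ D`
    have hsurj := QuotientGroup.mk'_surjective D
    have hQbar_n : ((Q₀.mapSurjective hsurj : Sylow q (G ⧸ D)) : Subgroup (G ⧸ D)).Normal := by
      rw [Sylow.coe_mapSurjective]
      exact hQ.map _ hsurj
    have hQbar_c : ∀ a ∈ ((Q₀.mapSurjective hsurj : Sylow q (G ⧸ D)) : Subgroup (G ⧸ D)),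
        ∀ b ∈ ((Q₀.mapSurjective hsurj : Sylow q (G ⧸ D)) : Subgroup (G ⧸ D)), a * b = b * a := by
      intro a ha b hb
      rw [Sylow.coe_mapSurjective] at ha hb
      obtain ⟨a₀, ha₀, rfl⟩ := ha
      obtain ⟨b₀, hb₀, rfl⟩ := hb
      rw [← map_mul, ← map_mul]
      apply (QuotientGroup.eq).2
      rw [hD]
      refine ⟨⁅(⟨b₀⁻¹, inv_mem hb₀⟩ : (Q₀ : Subgroup G)), ⟨a₀⁻¹, inv_mem ha₀⟩⁆,
        Subgroup.commutator_mem_commutator (Subgroup.mem_top _) (Subgroup.mem_top _), ?_⟩
      simp [commutatorElement_def]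
      group
    have hQbar_q : ∀ x y : G ⧸ D, x * y * x⁻¹ * y⁻¹ ∈
        ((Q₀.mapSurjective hsurj : Sylow q (G ⧸ D)) : Subgroup (G ⧸ D)) := by
      intro x y
      obtain ⟨g₁, rfl⟩ := hsurj x
      obtain ⟨g₂, rfl⟩ := hsurj y
      rw [Sylow.coe_mapSurjective]
      exact ⟨g₁ * g₂ * g₁⁻¹ * g₂⁻¹, hGQ g₁ g₂, by simp⟩
    -- `K` is nilpotent
    have hc : K.comap (QuotientGroup.mk' D) ≠ ⊤ := by
      intro e
      apply hK
      rw [← Subgroup.map_comap_eq_self_of_surjective hsurj K, e,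
        ← MonoidHom.range_eq_map, MonoidHom.range_eq_top.2 hsurj]
    have hnil0 := hG.2 _ hc
    have hKnil : Group.IsNilpotent K :=
      Group.nilpotent_of_surjective ((QuotientGroup.mk' D).subgroupComap K)
        (MonoidHom.subgroupComap_surjective_of_surjective _ _ hsurj)
    exact isMulCommutative_of_nilpotent q (Q₀.mapSurjective hsurj) hQbar_n hQbar_c hQbar_q K hKnil

end Cfsg.Agent.Lib.Helper9.MNN4
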