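import Cfsg.Agent.S1466
import Cfsg.Agent.S1467
import Cfsg.Prelude.Def_OddOrderLocal

/-!
# The Puig series of a subgroup, computed inside an ambient group

`relStep H X` is `L_H(X)` (generated by the abelian subgroups of `H` normalized by `X`), as a
subgroup of the ambient group; `relSeq H n`, `relL H`, `relLstar H`, `ZL H` are the Puig series,
`L(H)`, `L_*(H)` and `Z(L(H))`.  They commute with homomorphisms injective on `H` and are the
images of the Prelude's `puigSeq ↥H`, `puigSubgroup ↥H`, `puigLower ↥H`.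
-/

set_option autoImplicit false

namespace Cfsg.Agent.Lib.Helper9.Puig1

variable {G : Type*} [Group G]

/-- the abelian subgroups of `H` normalized by `X`. -/
def relFam (H X : Subgroup G) : Set (Subgroup G) :=
  {A | A ≤ H ∧ IsMulCommutative A ∧ X ≤ Subgroup.normalizer (A : Set G)}

/-- `L_H(X)`. -/
def relStep (H X : Subgroup G) : Subgroup G := sSup (relFam H X)

/-- the Puig series of `H`. -/
def relSeq (H : Subgroup G) : ℕ → Subgroup G
  | 0 => ⊥
  | n + 1 => relStep H (relSeq H n)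

/-- `L(H)`. -/
def relL (H : Subgroup G) : Subgroup G := ⨅ n : ℕ, relSeq H (2 * n + 1)

/-- `L_*(H)`. -/
def relLstar (H : Subgroup G) : Subgroup G := ⨆ n : ℕ, relSeq H (2 * n)

/-- `Z(L(H))`. -/
def ZL (H : Subgroup G) : Subgroup G := relL H ⊓ Subgroup.centralizer (relL H : Set G)

theorem relStep_le (H X : Subgroup G) : relStep H X ≤ H := sSup_le (fun _ hA => hA.1)

theorem relStep_anti {H X Y : Subgroup G} (h : X ≤ Y) : relStep H Y ≤ relStep H X :=
  sSup_le_sSup (fun _ hA => ⟨hA.1, hA.2.1, h.trans hA.2.2⟩)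

theorem relStep_mono_left {H H' : Subgroup G} (X : Subgroup G) (h : H ≤ H') :
    relStep H X ≤ relStep H' X :=
  sSup_le_sSup (fun _ hA => ⟨hA.1.trans h, hA.2.1, hA.2.2⟩)

theorem relSeq_zero (H : Subgroup G) : relSeq H 0 = ⊥ := rfl

theorem relSeq_succ (H : Subgroup G) (n : ℕ) : relSeq H (n + 1) = relStep H (relSeq H n) := rfl

theorem relSeq_le (H : Subgroup G) (n : ℕ) : relSeq H n ≤ H := by
  cases n with
  | zero => exact bot_le
  | succ _ => exact relStep_le _ _

theorem relL_le (H : Subgroup G) : relL H ≤ H :=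
  (iInf_le (fun n => relSeq H (2 * n + 1)) 0).trans (relSeq_le H _)

theorem relLstar_le (H : Subgroup G) : relLstar H ≤ H :=
  iSup_le (fun _ => relSeq_le H _)

theorem ZL_le (H : Subgroup G) : ZL H ≤ H := inf_le_left.trans (relL_le H)

theorem mem_relStep_of_mem_relFam {H X A : Subgroup G} (hA : A ∈ relFam H X) :
    A ≤ relStep H X := le_sSup hA

/-! ### homomorphisms injective on `H` -/

section map

variable {G' : Type*} [Group G']

theorem eq_of_map_eq (f : G →* G') {H : Subgroup G} (hinj : ∀ x ∈ H, f x = 1 → x = 1)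
    {x y : G} (hx : x ∈ H) (hy : y ∈ H) (h : f x = f y) : x = y := by
  have h1 : f (x * y⁻¹) = 1 := by rw [map_mul, map_inv, h, mul_inv_cancel]
  have h2 := hinj _ (H.mul_mem hx (H.inv_mem hy)) h1
  exact mul_inv_eq_one.mp h2

theorem relStep_map (f : G →* G') {H X : Subgroup G} (hX : X ≤ H)
    (hinj : ∀ x ∈ H, f x = 1 → x = 1) :
    (relStep H X).map f = relStep (H.map f) (X.map f) := by
  apply le_antisymm
  · rw [Subgroup.map_le_iff_le_comap]
    apply sSup_le
    intro A hA
    rw [← Subgroup.map_le_iff_le_comap]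
    apply le_sSup
    refine ⟨Subgroup.map_mono hA.1, ?_, ?_⟩
    · have hc := hA.2.1
      refine ⟨⟨?_⟩⟩
      rintro ⟨_, a, ha, rfl⟩ ⟨_, b, hb, rfl⟩
      apply Subtype.ext
      show f a * f b = f b * f a
      have h1 := hc.is_comm.comm (⟨a, ha⟩ : A) ⟨b, hb⟩
      have h2 : a * b = b * a := congrArg Subtype.val h1
      rw [← map_mul, ← map_mul, h2]
    · exact (Subgroup.map_mono hA.2.2).trans (Subgroup.le_normalizer_map f)
  · apply sSup_le
    intro A' hA'
    obtain ⟨hA'H, hA'c, hA'n⟩ := hA'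
    have hAfam : A'.comap f ⊓ H ∈ relFam H X := by
      refine ⟨inf_le_right, ?_, ?_⟩
      · refine ⟨⟨?_⟩⟩
        rintro ⟨a, ha⟩ ⟨b, hb⟩
        apply Subtype.ext
        show a * b = b * a
        obtain ⟨ha1, ha2⟩ := Subgroup.mem_inf.mp ha
        obtain ⟨hb1, hb2⟩ := Subgroup.mem_inf.mp hb
        apply eq_of_map_eq f hinj (H.mul_mem ha2 hb2) (H.mul_mem hb2 ha2)
        rw [map_mul, map_mul]
        have h1 := hA'c.is_comm.comm (⟨f a, ha1⟩ : A') ⟨f b, hb1⟩
        exact congrArg Subtype.val h1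
      · intro x hx
        have hfx : f x ∈ Subgroup.normalizer (A' : Set G') := hA'n (Subgroup.mem_map_of_mem f hx)
        have hfx' : (f x)⁻¹ ∈ Subgroup.normalizer (A' : Set G') := Subgroup.inv_mem _ hfx
        rw [Subgroup.mem_normalizer_iff]
        intro a
        constructor
        · intro ha
          obtain ⟨ha1, ha2⟩ := Subgroup.mem_inf.mp ha
          refine Subgroup.mem_inf.mpr ⟨?_, H.mul_mem (H.mul_mem (hX hx) ha2) (H.inv_mem (hX hx))⟩
          rw [Subgroup.mem_comap, map_mul, map_mul, map_inv]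
          exact (Subgroup.mem_normalizer_iff.mp hfx (f a)).mp ha1
        · intro ha
          obtain ⟨ha1, ha2⟩ := Subgroup.mem_inf.mp ha
          have e : a = x⁻¹ * (x * a * x⁻¹) * x := by group
          refine Subgroup.mem_inf.mpr ⟨?_, ?_⟩
          · rw [Subgroup.mem_comap] at ha1 ⊢
            have h1 := (Subgroup.mem_normalizer_iff.mp hfx' (f (x * a * x⁻¹))).mp ha1
            have e2 : (f x)⁻¹ * f (x * a * x⁻¹) * (f x)⁻¹⁻¹ = f a := by
              rw [map_mul, map_mul, map_inv]; group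
            rwa [e2] at h1
          · rw [e]
            exact H.mul_mem (H.mul_mem (H.inv_mem (hX hx)) ha2) (hX hx)
    have hmap : (A'.comap f ⊓ H).map f = A' := by
      apply le_antisymm
      · rintro _ ⟨a, ha, rfl⟩
        exact (Subgroup.mem_inf.mp ha).1
      · intro y hy
        obtain ⟨h, hh, rfl⟩ := Subgroup.mem_map.mp (hA'H hy)
        exact Subgroup.mem_map_of_mem f (Subgroup.mem_inf.mpr ⟨hy, hh⟩)
    rw [← hmap]
    exact Subgroup.map_mono (le_sSup hAfam)

theorem relSeq_map (f : G →* G') {H : Subgroup G} (hinj : ∀ x ∈ H, f x = 1 → x = 1) (n : ℕ) :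
    (relSeq H n).map f = relSeq (H.map f) n := by
  induction n with
  | zero => simp [relSeq_zero]
  | succ n ih =>
    rw [relSeq_succ, relSeq_succ, relStep_map f (relSeq_le H n) hinj, ih]

end map

/-! ### bridge to the Prelude's Puig series of the group `↥H` -/

section bridge

theorem puigStep_eq (X : Subgroup G) : Cfsg.puigStep X = relStep ⊤ X := by
  unfold Cfsg.puigStep relStep relFam
  congr 1
  ext A
  simp

theorem puigSeq_eq (n : ℕ) : Cfsg.puigSeq G n = relSeq (⊤ : Subgroup G) n := by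
  induction n with
  | zero => rfl
  | succ n ih =>
    rw [Cfsg.Agent.S1467.seq_succ, relSeq_succ, puigStep_eq, ih]

theorem map_top_subtype (H : Subgroup G) : (⊤ : Subgroup ↥H).map H.subtype = H := by
  rw [← MonoidHom.range_eq_map, Subgroup.range_subtype]

theorem subtype_inj_on (H : Subgroup G) (K : Subgroup ↥H) :
    ∀ x ∈ K, H.subtype x = 1 → x = 1 := by
  intro x _ hx
  exact Subtype.ext hx

theorem map_puigSeq (H : Subgroup G) (n : ℕ) :
    (Cfsg.puigSeq ↥H n).map H.subtype = relSeq H n := by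
  rw [puigSeq_eq, relSeq_map H.subtype (subtype_inj_on H ⊤), map_top_subtype]

theorem map_puigStep (H : Subgroup G) (X : Subgroup ↥H) :
    (Cfsg.puigStep X).map H.subtype = relStep H (X.map H.subtype) := by
  rw [puigStep_eq, relStep_map H.subtype le_top (subtype_inj_on H ⊤), map_top_subtype]

theorem map_puigSubgroup (H : Subgroup G) :
    (Cfsg.puigSubgroup ↥H).map H.subtype = relL H := by
  unfold Cfsg.puigSubgroup relL
  rw [Subgroup.map_iInf _ H.subtype_injective]
  congr 1
  funext n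
  exact map_puigSeq H _

theorem map_puigLower (H : Subgroup G) :
    (Cfsg.puigLower ↥H).map H.subtype = relLstar H := by
  unfold Cfsg.puigLower relLstar
  rw [Subgroup.map_iSup]
  congr 1
  funext n
  exact map_puigSeq H _

/-- stabilization of the Puig series. -/
theorem rel_stab (H : Subgroup G) [Finite H] :
    ∃ k : ℕ, ∀ n : ℕ, k ≤ n → relSeq H (2 * n) = relLstar H ∧ relSeq H (2 * n + 1) = relL H := by
  obtain ⟨k, hk⟩ := Cfsg.Agent.S1467.stab (G := ↥H)
  refine ⟨k, fun n hn => ⟨?_, ?_⟩⟩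
  · rw [← map_puigSeq, (hk n hn).1, map_puigLower]
  · rw [← map_puigSeq, (hk n hn).2, map_puigSubgroup]

theorem relLstar_le_relL (H : Subgroup G) [Finite H] : relLstar H ≤ relL H := by
  rw [← map_puigLower, ← map_puigSubgroup]
  exact Subgroup.map_mono (Cfsg.Agent.S1467.result (G := ↥H)).2.2.2.2.1

theorem relStep_relLstar (H : Subgroup G) [Finite H] : relStep H (relLstar H) = relL H := by
  rw [← map_puigLower, ← map_puigStep, (Cfsg.Agent.S1467.result (G := ↥H)).2.2.2.2.2.1,
    map_puigSubgroup]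

theorem relStep_relL (H : Subgroup G) [Finite H] : relStep H (relL H) = relLstar H := by
  rw [← map_puigSubgroup, ← map_puigStep, (Cfsg.Agent.S1467.result (G := ↥H)).2.2.2.2.2.2,
    map_puigLower]

theorem relSeq_even_le_relLstar (H : Subgroup G) (n : ℕ) : relSeq H (2 * n) ≤ relLstar H :=
  le_iSup (fun n => relSeq H (2 * n)) n

theorem relL_le_relSeq_odd (H : Subgroup G) (n : ℕ) : relL H ≤ relSeq H (2 * n + 1) :=
  iInf_le (fun n => relSeq H (2 * n + 1)) n

/-- in a finite `p`-group `H`, the terms `L_i(H)`, `i > 0`, contain their centralizers in `H`. -/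
theorem centralizer_relSeq_le {p : ℕ} [Fact p.Prime] (H : Subgroup G) [Finite H]
    (hH : IsPGroup p H) (i : ℕ) (hi : 0 < i) :
    H ⊓ Subgroup.centralizer (relSeq H i : Set G) ≤ relSeq H i := by
  by_cases hbot : H = ⊥
  · rw [hbot]
    exact inf_le_left.trans bot_le
  have hnt : Nontrivial ↥H := (Subgroup.nontrivial_iff_ne_bot H).mpr hbot
  have h1 := ((Cfsg.Agent.S1466.result (R := ↥H) p hH).1 i hi).2
  intro x hx
  obtain ⟨hxH, hxC⟩ := Subgroup.mem_inf.mp hx
  have h2 : (⟨x, hxH⟩ : ↥H) ∈ Subgroup.centralizer ((Cfsg.puigSeq ↥H i : Subgroup ↥H) : Set ↥H) := by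
    rw [Subgroup.mem_centralizer_iff]
    intro y hy
    apply Subtype.ext
    have hy' : (y : G) ∈ relSeq H i := by
      rw [← map_puigSeq]
      exact Subgroup.mem_map_of_mem _ hy
    exact (Subgroup.mem_centralizer_iff.mp hxC) _ hy'
  have h3 := h1 h2
  rw [← map_puigSeq]
  exact ⟨⟨x, hxH⟩, h3, rfl⟩

end bridge

/-! ### `L`, `L_*`, `Z(L)` under homomorphisms injective on `H` -/

section map2

variable {G' : Type*} [Group G']

theorem relL_map (f : G →* G') {H : Subgroup G} [Finite H] (hinj : ∀ x ∈ H, f x = 1 → x = 1) :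
    (relL H).map f = relL (H.map f) := by
  have hfin : Finite (H.map f) := by
    have : Finite (↑(f '' (H : Set G))) := Finite.Set.finite_image _ _
    exact this
  obtain ⟨k, hk⟩ := rel_stab H
  obtain ⟨k', hk'⟩ := rel_stab (H.map f)
  rw [← (hk (max k k') (le_max_left _ _)).2, ← (hk' (max k k') (le_max_right _ _)).2]
  exact relSeq_map f hinj _

theorem relLstar_map (f : G →* G') {H : Subgroup G} [Finite H]
    (hinj : ∀ x ∈ H, f x = 1 → x = 1) : (relLstar H).map f = relLstar (H.map f) := by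
  have hfin : Finite (H.map f) := by
    have : Finite (↑(f '' (H : Set G))) := Finite.Set.finite_image _ _
    exact this
  obtain ⟨k, hk⟩ := rel_stab H
  obtain ⟨k', hk'⟩ := rel_stab (H.map f)
  rw [← (hk (max k k') (le_max_left _ _)).1, ← (hk' (max k k') (le_max_right _ _)).1]
  exact relSeq_map f hinj _

theorem center_map (f : G →* G') {H L : Subgroup G} (hL : L ≤ H)
    (hinj : ∀ x ∈ H, f x = 1 → x = 1) :
    (L ⊓ Subgroup.centralizer (L : Set G)).map f =
      L.map f ⊓ Subgroup.centralizer ((L.map f : Subgroup G') : Set G') := by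
  apply le_antisymm
  · rintro _ ⟨x, hx, rfl⟩
    obtain ⟨hx1, hx2⟩ := Subgroup.mem_inf.mp hx
    refine Subgroup.mem_inf.mpr ⟨Subgroup.mem_map_of_mem f hx1, ?_⟩
    rw [Subgroup.mem_centralizer_iff]
    rintro _ ⟨l, hl, rfl⟩
    rw [← map_mul, ← map_mul, (Subgroup.mem_centralizer_iff.mp hx2) l hl]
  · intro y hy
    obtain ⟨hy1, hy2⟩ := Subgroup.mem_inf.mp hy
    obtain ⟨x, hx, rfl⟩ := Subgroup.mem_map.mp hy1
    refine Subgroup.mem_map_of_mem f (Subgroup.mem_inf.mpr ⟨hx, ?_⟩)
    rw [Subgroup.mem_centralizer_iff]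
    intro l hl
    apply eq_of_map_eq f hinj (H.mul_mem (hL hl) (hL hx)) (H.mul_mem (hL hx) (hL hl))
    rw [map_mul, map_mul]
    exact (Subgroup.mem_centralizer_iff.mp hy2) _ (Subgroup.mem_map_of_mem f hl)

theorem ZL_map (f : G →* G') {H : Subgroup G} [Finite H] (hinj : ∀ x ∈ H, f x = 1 → x = 1) :
    (ZL H).map f = ZL (H.map f) := by
  unfold ZL
  rw [center_map f (relL_le H) hinj, relL_map f hinj]

end map2

section center

/-- the centre of a subgroup, viewed in the ambient group. -/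
theorem map_center_subtype (K : Subgroup G) :
    (Subgroup.center ↥K).map K.subtype = K ⊓ Subgroup.centralizer (K : Set G) := by
  ext x
  constructor
  · rintro ⟨z, hz, rfl⟩
    refine Subgroup.mem_inf.mpr ⟨z.2, ?_⟩
    rw [Subgroup.mem_centralizer_iff]
    intro k hk
    have h1 := (Subgroup.mem_center_iff.mp hz) ⟨k, hk⟩
    exact congrArg Subtype.val h1
  · intro hx
    obtain ⟨hx1, hx2⟩ := Subgroup.mem_inf.mp hx
    refine ⟨⟨x, hx1⟩, ?_, rfl⟩
    rw [SetLike.mem_coe, Subgroup.mem_center_iff]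
    intro k
    apply Subtype.ext
    exact (Subgroup.mem_centralizer_iff.mp hx2) _ k.2

/-- the expression of S1469 is `ZL S`. -/
theorem map_center_puig (H : Subgroup G) [Finite H] :
    ((Subgroup.center ↥(Cfsg.puigSubgroup ↥H)).map (Cfsg.puigSubgroup ↥H).subtype).map H.subtype
      = ZL H := by
  rw [map_center_subtype, center_map H.subtype le_top (subtype_inj_on H ⊤), map_puigSubgroup]
  rfl

end center

/-! ### normality -/

section normal

theorem normal_of_map_conj_le (K : Subgroup G)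
    (h : ∀ g : G, K.map (MulAut.conj g).toMonoidHom ≤ K) : K.Normal :=
  ⟨fun n hn g => h g ⟨n, hn, rfl⟩⟩

theorem map_conj_eq_of_normalizer {H : Subgroup G} {g : G}
    (hg : g ∈ Subgroup.normalizer (H : Set G)) : H.map (MulAut.conj g).toMonoidHom = H := by
  apply le_antisymm
  · rintro _ ⟨x, hx, rfl⟩
    exact (Subgroup.mem_normalizer_iff.mp hg x).mp hx
  · intro x hx
    have hg' : g⁻¹ ∈ Subgroup.normalizer (H : Set G) := Subgroup.inv_mem _ hg
    refine ⟨g⁻¹ * x * g, ?_, ?_⟩
    · have h1 := (Subgroup.mem_normalizer_iff.mp hg' x).mp hx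
      simpa using h1
    · show g * (g⁻¹ * x * g) * g⁻¹ = x
      group

theorem conj_inj_on (g : G) (H : Subgroup G) :
    ∀ x ∈ H, (MulAut.conj g).toMonoidHom x = 1 → x = 1 := by
  intro x _ hx
  have h1 : g * x * g⁻¹ = 1 := hx
  have h2 : x = g⁻¹ * (g * x * g⁻¹) * g := by group
  rw [h2, h1]; group

theorem normalizer_le_normalizer_relSeq (H : Subgroup G) (n : ℕ) :
    Subgroup.normalizer (H : Set G) ≤ Subgroup.normalizer (relSeq H n : Set G) := by
  intro g hg
  have hg' : g⁻¹ ∈ Subgroup.normalizer (H : Set G) := Subgroup.inv_mem _ hg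
  have h1 : ∀ g' ∈ Subgroup.normalizer (H : Set G), ∀ x ∈ relSeq H n,
      g' * x * g'⁻¹ ∈ relSeq H n := by
    intro g' hg'' x hx
    have h2 := relSeq_map (MulAut.conj g').toMonoidHom (conj_inj_on g' H) n
    rw [map_conj_eq_of_normalizer hg''] at h2
    rw [← h2]
    exact ⟨x, hx, rfl⟩
  rw [Subgroup.mem_normalizer_iff]
  intro x
  refine ⟨h1 g hg x, fun hx => ?_⟩
  have h3 := h1 g⁻¹ hg' _ hx
  have e : g⁻¹ * (g * x * g⁻¹) * g⁻¹⁻¹ = x := by group
  rwa [e] at h3

theorem normalizer_le_normalizer_relL (H : Subgroup G) [Finite H] :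
    Subgroup.normalizer (H : Set G) ≤ Subgroup.normalizer (relL H : Set G) := by
  obtain ⟨k, hk⟩ := rel_stab H
  rw [← (hk k le_rfl).2]
  exact normalizer_le_normalizer_relSeq H _

theorem normalizer_le_normalizer_relLstar (H : Subgroup G) [Finite H] :
    Subgroup.normalizer (H : Set G) ≤ Subgroup.normalizer (relLstar H : Set G) := by
  obtain ⟨k, hk⟩ := rel_stab H
  rw [← (hk k le_rfl).1]
  exact normalizer_le_normalizer_relSeq H _

theorem normalizer_le_normalizer_ZL (H : Subgroup G) [Finite H] :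
    Subgroup.normalizer (H : Set G) ≤ Subgroup.normalizer (ZL H : Set G) := by
  intro g hg
  have hg' : g⁻¹ ∈ Subgroup.normalizer (H : Set G) := Subgroup.inv_mem _ hg
  have h1 : ∀ g' ∈ Subgroup.normalizer (H : Set G), ∀ x ∈ ZL H, g' * x * g'⁻¹ ∈ ZL H := by
    intro g' hg'' x hx
    have h2 := ZL_map (MulAut.conj g').toMonoidHom (conj_inj_on g' H)
    rw [map_conj_eq_of_normalizer hg''] at h2
    rw [← h2]
    exact ⟨x, hx, rfl⟩
  rw [Subgroup.mem_normalizer_iff]
  intro x
  refine ⟨h1 g hg x, fun hx => ?_⟩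
  have h3 := h1 g⁻¹ hg' _ hx
  have e : g⁻¹ * (g * x * g⁻¹) * g⁻¹⁻¹ = x := by group
  rwa [e] at h3

theorem normal_of_normalizer_eq_top {K : Subgroup G}
    (h : ∀ g : G, g ∈ Subgroup.normalizer (K : Set G)) : K.Normal :=
  ⟨fun n hn g => (Subgroup.mem_normalizer_iff.mp (h g) n).mp hn⟩

theorem relSeq_normal (H : Subgroup G) [hH : H.Normal] (n : ℕ) : (relSeq H n).Normal :=
  normal_of_normalizer_eq_top (fun g => normalizer_le_normalizer_relSeq H n
    (by rw [Subgroup.normalizer_eq_top_iff.mpr hH]; exact Subgroup.mem_top g))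

theorem ZL_normal (H : Subgroup G) [Finite H] [hH : H.Normal] : (ZL H).Normal :=
  normal_of_normalizer_eq_top (fun g => normalizer_le_normalizer_ZL H
    (by rw [Subgroup.normalizer_eq_top_iff.mpr hH]; exact Subgroup.mem_top g))

theorem ZL_comm (H : Subgroup G) : IsMulCommutative (ZL H) := by
  refine ⟨⟨?_⟩⟩
  rintro ⟨a, ha⟩ ⟨b, hb⟩
  apply Subtype.ext
  show a * b = b * a
  exact (Subgroup.mem_centralizer_iff.mp (Subgroup.mem_inf.mp hb).2) a (Subgroup.mem_inf.mp ha).1

end normal

end Cfsg.Agent.Lib.Helper9.Puig1
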