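import Cfsg.Agent.Lib.Helper9.QuadOdd2
import Cfsg.Agent.Lib.Helper67.BaerSuzuki
import Cfsg.Prelude.Def_Solvable

/-!
# `p`-stability for groups of odd order (assuming `S1463Stmt`)

`pstable_normal`: `Γ` finite of odd order, `p` odd, `P` a normal `p`-subgroup, `A` a `p`-subgroup
acting quadratically on `P`, `φ : Γ →* Q` surjective killing `C_Γ(P)`: then `φ(A) ≤ O_p(Q)`.

`pstable`: the form of S1464 (image of `A` in `N_G(P)/C_G(P)` lies in `O_p`).
-/

set_option autoImplicit false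

universe u v

namespace Cfsg.Agent.Lib.Helper9.QuadOdd3

open Cfsg.Agent.Lib.Helper9.QuadOdd1 Cfsg.Agent.Lib.Helper9.QuadOdd2
open scoped commutatorElement

section basic

variable {G : Type*} [Group G]

/-- a conjugation-invariant set generates a normal subgroup. -/
theorem closure_normal_of_conj_inv (K : Set G) (hK : ∀ g x, x ∈ K → g * x * g⁻¹ ∈ K) :
    (Subgroup.closure K).Normal := by
  refine ⟨fun n hn g => ?_⟩
  induction hn using Subgroup.closure_induction with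
  | mem x hx => exact Subgroup.subset_closure (hK g x hx)
  | one => simp
  | mul x y _ _ ihx ihy =>
    have e : g * (x * y) * g⁻¹ = (g * x * g⁻¹) * (g * y * g⁻¹) := by group
    rw [e]; exact Subgroup.mul_mem _ ihx ihy
  | inv x _ ihx =>
    have e : g * x⁻¹ * g⁻¹ = (g * x * g⁻¹)⁻¹ := by group
    rw [e]; exact Subgroup.inv_mem _ ihx

/-- quadratic action is inherited by conjugates under the normalizer. -/
theorem quad_conj {P : Subgroup G} {a g : G} (hg : ∀ x ∈ P, g⁻¹ * x * g ∈ P)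
    (hq : ∀ x ∈ P, a * ⁅x, a⁆ = ⁅x, a⁆ * a) :
    ∀ x ∈ P, (g * a * g⁻¹) * ⁅x, g * a * g⁻¹⁆ = ⁅x, g * a * g⁻¹⁆ * (g * a * g⁻¹) := by
  intro x hx
  have h1 := hq _ (hg x hx)
  have e : ⁅x, g * a * g⁻¹⁆ = g * ⁅g⁻¹ * x * g, a⁆ * g⁻¹ := by
    simp only [commutatorElement_def]; group
  rw [e]
  calc g * a * g⁻¹ * (g * ⁅g⁻¹ * x * g, a⁆ * g⁻¹) = g * (a * ⁅g⁻¹ * x * g, a⁆) * g⁻¹ := by group
    _ = g * (⁅g⁻¹ * x * g, a⁆ * a) * g⁻¹ := by rw [h1]
    _ = g * ⁅g⁻¹ * x * g, a⁆ * g⁻¹ * (g * a * g⁻¹) := by group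

/-- the `p'`-part: `h ^ (p ^ k)` has order prime to `p` for a suitable `k`. -/
theorem exists_pow_coprime [Finite G] (p : ℕ) [Fact p.Prime] (h : G) :
    ∃ k : ℕ, (orderOf (h ^ p ^ k)).Coprime p := by
  have hpr : p.Prime := Fact.out
  have hn0 : orderOf h ≠ 0 := (orderOf_pos h).ne'
  refine ⟨(orderOf h).factorization p, ?_⟩
  have h1 : (h ^ p ^ (orderOf h).factorization p) ^ (orderOf h / p ^ (orderOf h).factorization p)
      = 1 := by
    rw [← pow_mul, Nat.mul_div_cancel' (Nat.ordProj_dvd _ _), pow_orderOf_eq_one]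
  have h2 := orderOf_dvd_of_pow_eq_one h1
  exact (Nat.Coprime.coprime_dvd_left h2 (Nat.coprime_ordCompl hpr hn0).symm)

end basic

section main

open Cfsg.Agent.Lib.Helper67

/-- **p-stability, normal form.** -/
theorem pstable_normal (hS : S1463Stmt) {Γ : Type u} [Group Γ] [Finite Γ]
    (hodd : Odd (Nat.card Γ)) {p : ℕ} [Fact p.Prime] (hp : p ≠ 2)
    (P A : Subgroup Γ) [hPn : P.Normal] (hP : IsPGroup p P) (hA : IsPGroup p A)
    (hq : ∀ x ∈ P, ∀ a ∈ A, a * ⁅x, a⁆ = ⁅x, a⁆ * a)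
    {Q : Type v} [Group Q] (φ : Γ →* Q) (hφ : Function.Surjective φ)
    (hker : Subgroup.centralizer (P : Set Γ) ≤ φ.ker) :
    A.map φ ≤ Cfsg.pCore p Q := by
  classical
  have hfin : Finite Q := Finite.of_surjective φ hφ
  obtain ⟨K, hKdef⟩ : ∃ K : Set Q, K = {y | ∃ a ∈ A, ∃ g : Γ, y = φ (g * a * g⁻¹)} := ⟨_, rfl⟩
  have hK : ∀ g x, x ∈ K → g * x * g⁻¹ ∈ K := by
    intro g x hx
    rw [hKdef] at hx ⊢
    obtain ⟨a, ha, g1, rfl⟩ := hx
    obtain ⟨g0, rfl⟩ := hφ g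
    refine ⟨a, ha, g0 * g1, ?_⟩
    rw [← map_inv, ← map_mul, ← map_mul]
    congr 1
    group
  have hpair : ∀ x ∈ K, ∀ y ∈ K, IsPGroup p (Subgroup.closure ({x, y} : Set Q)) := by
    intro x hx y hy
    rw [hKdef] at hx hy
    obtain ⟨a, ha, g, rfl⟩ := hx
    obtain ⟨b, hb, g', rfl⟩ := hy
    have hPow : ∀ (c : Γ), c ∈ A → ∀ g : Γ, ∃ k : ℕ, (g * c * g⁻¹) ^ p ^ k = 1 := by
      intro c hc g
      obtain ⟨k, hk⟩ := hA ⟨c, hc⟩
      refine ⟨k, ?_⟩
      have hk' : c ^ p ^ k = 1 := by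
        have := congrArg Subtype.val hk
        simpa using this
      rw [conj_pow, hk']
      group
    have hQP := quad_pair hS hp (Nat.card P) Γ hodd P rfl hP (g * a * g⁻¹) (g' * b * g'⁻¹)
      (fun x hx => hPn.conj_mem x hx _) (fun x hx => hPn.conj_mem x hx _)
      (hPow a ha g) (hPow b hb g')
      (quad_conj (fun x hx => by simpa using hPn.conj_mem x hx g⁻¹) (fun x hx => hq x hx a ha))
      (quad_conj (fun x hx => by simpa using hPn.conj_mem x hx g'⁻¹) (fun x hx => hq x hx b hb))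
    have key : ∀ z ∈ Subgroup.closure ({φ (g * a * g⁻¹), φ (g' * b * g'⁻¹)} : Set Q),
        ∃ h ∈ Subgroup.closure ({g * a * g⁻¹, g' * b * g'⁻¹} : Set Γ), φ h = z := by
      intro z hz
      induction hz using Subgroup.closure_induction with
      | mem x hx =>
        rcases hx with rfl | rfl
        · exact ⟨_, Subgroup.subset_closure (Set.mem_insert _ _), rfl⟩
        · exact ⟨_, Subgroup.subset_closure (Set.mem_insert_of_mem _ rfl), rfl⟩
      | one => exact ⟨1, Subgroup.one_mem _, map_one φ⟩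
      | mul x y _ _ ihx ihy =>
        obtain ⟨h1, hh1, rfl⟩ := ihx
        obtain ⟨h2, hh2, rfl⟩ := ihy
        exact ⟨h1 * h2, Subgroup.mul_mem _ hh1 hh2, map_mul φ _ _⟩
      | inv x _ ihx =>
        obtain ⟨h1, hh1, rfl⟩ := ihx
        exact ⟨h1⁻¹, Subgroup.inv_mem _ hh1, map_inv φ _⟩
    rintro ⟨z, hz⟩
    obtain ⟨h, hh, rfl⟩ := key z hz
    obtain ⟨k, hk⟩ := exists_pow_coprime p h
    refine ⟨k, ?_⟩
    apply Subtype.ext
    rw [Subgroup.coe_pow, Subgroup.coe_one]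
    show φ h ^ p ^ k = 1
    rw [← map_pow]
    apply hker
    rw [Subgroup.mem_centralizer_iff]
    intro x hx
    exact (hQP (h ^ p ^ k) (Subgroup.pow_mem _ hh _) hk x hx).symm
  have hBS : IsPGroup p (Subgroup.closure K) := BaerSuzuki.isPGroup_closure K hK hpair
  have hnorm : (Subgroup.closure K).Normal := closure_normal_of_conj_inv K hK
  have hle : Subgroup.closure K ≤ Cfsg.pCore p Q := le_sSup ⟨hnorm, hBS⟩
  intro y hy
  obtain ⟨a, ha, rfl⟩ := Subgroup.mem_map.mp hy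
  apply hle
  apply Subgroup.subset_closure
  rw [hKdef]
  exact ⟨a, ha, 1, by simp⟩

end main

section stmt

/-- quadratic action `⁅⁅P, A⁆, A⁆ = ⊥`, elementwise. -/
theorem quad_elementwise {G : Type*} [Group G] {P A : Subgroup G} (hquad : ⁅⁅P, A⁆, A⁆ = ⊥) :
    ∀ x ∈ P, ∀ a ∈ A, a * ⁅x, a⁆ = ⁅x, a⁆ * a := by
  intro x hx a ha
  have h1 : ⁅x, a⁆ ∈ ⁅P, A⁆ := Subgroup.commutator_mem_commutator hx ha
  have h2 := (Subgroup.commutator_eq_bot_iff_le_centralizer.mp hquad) h1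
  exact (Subgroup.mem_centralizer_iff.mp h2) a ha

/-- **p-stability** in the form of S1464 (no solvability needed, given `S1463Stmt`). -/
theorem pstable (hS : S1463Stmt) {G : Type u} [Group G] [Finite G] (hodd : Odd (Nat.card G))
    (p : ℕ) [Fact p.Prime] (hp : p ≠ 2) (P A : Subgroup G) (hP : IsPGroup p P)
    (hA : IsPGroup p A) (hquad : ⁅⁅P, A⁆, A⁆ = ⊥) :
    (A.subgroupOf (Subgroup.normalizer (P : Set G))).map
        (QuotientGroup.mk' ((Subgroup.centralizer (P : Set G)).subgroupOf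
          (Subgroup.normalizer (P : Set G))))
      ≤ Cfsg.pCore p _ := by
  have hq := quad_elementwise hquad
  refine pstable_normal hS (Γ := ↥(Subgroup.normalizer (P : Set G))) ?_ hp
    (P.subgroupOf _) (A.subgroupOf _) ?_ ?_ ?_ _ (QuotientGroup.mk'_surjective _) ?_
  · exact hodd.of_dvd_nat (Subgroup.card_subgroup_dvd_card _)
  · exact hP.comap_subtype
  · exact hA.comap_subtype
  · intro x hx a ha
    apply Subtype.ext
    exact hq x.1 (Subgroup.mem_subgroupOf.mp hx) a.1 (Subgroup.mem_subgroupOf.mp ha)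
  · intro n hn
    rw [QuotientGroup.ker_mk', Subgroup.mem_subgroupOf, Subgroup.mem_centralizer_iff]
    intro x hx
    have h1 := (Subgroup.mem_centralizer_iff.mp hn) ⟨x, Subgroup.le_normalizer hx⟩
      (Subgroup.mem_subgroupOf.mpr hx)
    exact congrArg Subtype.val h1

end stmt

end Cfsg.Agent.Lib.Helper9.QuadOdd3
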