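import Cfsg.Agent.Lib.Helper9.QuadOdd3
import Cfsg.Agent.Lib.Helper11.PConstr
import Cfsg.Agent.S0017
import Cfsg.Prelude.Def_Local
import Cfsg.Prelude.Def_CaseTheorems

/-!
# Consequences of `p`-stability for solvable groups of odd order (assuming `S1463Stmt`)

* `le_pCore_of_map_le`: if `N` is a normal `p`-subgroup and the image of `Y` in `Γ/N` lies in
  `O_p(Γ/N)` then `Y ≤ O_p(Γ)`.
* `hall_higman_odd` (S1457): an abelian normal subgroup of a Sylow `p`-subgroup lies in
  `O_{p',p}(G)`.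
* `gen_abelian` (S1465).
-/

set_option autoImplicit false

universe u

namespace Cfsg.Agent.Lib.Helper9.QuadOdd4

open Cfsg.Agent.Lib.Helper9.QuadOdd1 Cfsg.Agent.Lib.Helper9.QuadOdd3
open Cfsg.Agent.Lib.Helper76.PSolv
open scoped commutatorElement

theorem le_pCore_of_map_le {Γ : Type*} [Group Γ] [Finite Γ] {p : ℕ} [Fact p.Prime]
    (N : Subgroup Γ) [N.Normal] (hN : IsPGroup p N) (Y : Subgroup Γ)
    (h : Y.map (QuotientGroup.mk' N) ≤ Cfsg.pCore p (Γ ⧸ N)) : Y ≤ Cfsg.pCore p Γ := by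
  have hM : ((Cfsg.pCore p (Γ ⧸ N)).comap (QuotientGroup.mk' N)).Normal :=
    Subgroup.Normal.comap inferInstance _
  have hMp : IsPGroup p ((Cfsg.pCore p (Γ ⧸ N)).comap (QuotientGroup.mk' N)) := by
    rintro ⟨m, hm⟩
    rw [Subgroup.mem_comap] at hm
    obtain ⟨k, hk⟩ := pCore_isPGroup p (G := Γ ⧸ N) ⟨_, hm⟩
    have hk' : (QuotientGroup.mk' N m) ^ p ^ k = 1 := by
      have := congrArg Subtype.val hk
      simpa using this
    rw [← map_pow, QuotientGroup.mk'_apply, QuotientGroup.eq_one_iff] at hk'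
    obtain ⟨j, hj⟩ := hN ⟨_, hk'⟩
    have hj' : (m ^ p ^ k) ^ p ^ j = 1 := by
      have := congrArg Subtype.val hj
      simpa using this
    refine ⟨k + j, Subtype.ext ?_⟩
    rw [Subgroup.coe_pow, Subgroup.coe_one, pow_add, pow_mul]
    exact hj'
  exact (Subgroup.map_le_iff_le_comap.mp h).trans (le_pCore hM hMp)

/-- commutators with an element normalizing an abelian subgroup commute with its elements. -/
theorem quad_of_normalizes {G : Type*} [Group G] {B : Subgroup G} (hB : IsMulCommutative B)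
    {x b : G} (hx : x * b * x⁻¹ ∈ B) (hb : b ∈ B) : b * ⁅x, b⁆ = ⁅x, b⁆ * b := by
  have h1 : ⁅x, b⁆ ∈ B := by
    rw [commutatorElement_def]
    exact B.mul_mem hx (B.inv_mem hb)
  have h2 := hB.is_comm.comm (⟨b, hb⟩ : B) ⟨⁅x, b⁆, h1⟩
  exact congrArg Subtype.val h2

/-- **S1457**: abelian normal subgroups of a Sylow `p`-subgroup lie in `O_{p',p}(G)`. -/
theorem hall_higman_odd (hS : S1463Stmt) {G : Type u} [Group G] [Finite G]
    [Group.IsSolvable G] (hodd : Odd (Nat.card G)) (p : ℕ) [Fact p.Prime] (S : Sylow p G)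
    (A : Subgroup G) (hA : A ≤ (S : Subgroup G)) (hAc : IsMulCommutative A)
    (hAn : (S : Subgroup G) ≤ Subgroup.normalizer (A : Set G)) :
    A ≤ Cfsg.pPrimePCore p G := by
  have hpr : p.Prime := Fact.out
  by_cases hp : p = 2
  · subst hp
    have h1 : ¬ 2 ∣ Nat.card G := fun h => (Nat.not_even_iff_odd.mpr hodd) (even_iff_two_dvd.mpr h)
    have h2 : Nat.card (S : Subgroup G) = 1 := by
      rw [Sylow.card_eq_multiplicity, Nat.factorization_eq_zero_of_not_dvd h1, pow_zero]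
    have h3 : (S : Subgroup G) = ⊥ := Subgroup.card_eq_one.mp h2
    intro a ha
    have h4 := hA ha
    rw [h3, Subgroup.mem_bot] at h4
    rw [h4]
    exact Subgroup.one_mem _
  · have hπ : Function.Surjective (QuotientGroup.mk' (Cfsg.pPrimeCore p G)) :=
      QuotientGroup.mk'_surjective _
    have hO : Cfsg.pPrimeCore p (G ⧸ Cfsg.pPrimeCore p G) = ⊥ := pPrimeCore_quotient p
    have hC := Cfsg.Agent.S0017.result (G := G ⧸ Cfsg.pPrimeCore p G) p hO
    have hoddq : Odd (Nat.card (G ⧸ Cfsg.pPrimeCore p G)) :=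
      hodd.of_dvd_nat (Subgroup.card_quotient_dvd_card _)
    have hPS : Cfsg.pCore p (G ⧸ Cfsg.pPrimeCore p G) ≤
        (S : Subgroup G).map (QuotientGroup.mk' (Cfsg.pPrimeCore p G)) := by
      have h1 := pCore_le_sylow (S.mapSurjective hπ)
      rwa [Sylow.coe_mapSurjective] at h1
    have hq : ∀ x ∈ Cfsg.pCore p (G ⧸ Cfsg.pPrimeCore p G),
        ∀ a ∈ A.map (QuotientGroup.mk' (Cfsg.pPrimeCore p G)), a * ⁅x, a⁆ = ⁅x, a⁆ * a := by
      intro x hx a ha
      obtain ⟨s, hs, rfl⟩ := Subgroup.mem_map.mp (hPS hx)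
      obtain ⟨a0, ha0, rfl⟩ := Subgroup.mem_map.mp ha
      rw [← map_commutatorElement, ← map_mul, ← map_mul]
      congr 1
      exact quad_of_normalizes hAc ((Subgroup.mem_normalizer_iff.mp (hAn hs) a0).mp ha0) ha0
    have key := pstable_normal hS hoddq hp (Cfsg.pCore p (G ⧸ Cfsg.pPrimeCore p G))
      (A.map (QuotientGroup.mk' (Cfsg.pPrimeCore p G))) (pCore_isPGroup p)
      ((S.isPGroup'.to_le hA).map _) hq
      (QuotientGroup.mk' (Subgroup.centralizer
        (Cfsg.pCore p (G ⧸ Cfsg.pPrimeCore p G) : Set (G ⧸ Cfsg.pPrimeCore p G))))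
      (QuotientGroup.mk'_surjective _) (by rw [QuotientGroup.ker_mk'])
    have hCp : IsPGroup p (Subgroup.centralizer
        (Cfsg.pCore p (G ⧸ Cfsg.pPrimeCore p G) : Set (G ⧸ Cfsg.pPrimeCore p G))) :=
      (pCore_isPGroup p).to_le hC
    have h5 := le_pCore_of_map_le _ hCp _ key
    intro a ha
    show a ∈ (Cfsg.pCore p (G ⧸ Cfsg.pPrimeCore p G)).comap
      (QuotientGroup.mk' (Cfsg.pPrimeCore p G))
    rw [Subgroup.mem_comap]
    exact h5 (Subgroup.mem_map_of_mem _ ha)

/-- under `O_{p'}(G) = 1` and `O_p(G) ∩ C_G(P) ≤ P` (`P` a normal `p`-subgroup, `G` solvable),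
`C_G(P)` is a `p`-group. -/
theorem isPGroup_centralizer {G : Type u} [Group G] [Finite G] [Group.IsSolvable G] (p : ℕ)
    [Fact p.Prime] (P : Subgroup G) [P.Normal] (hO : Cfsg.pPrimeCore p G = ⊥)
    (hle : Cfsg.pCore p G ⊓ Subgroup.centralizer (P : Set G) ≤ P) :
    IsPGroup p (Subgroup.centralizer (P : Set G)) := by
  have hOC : Cfsg.pPrimeCore p ↥(Subgroup.centralizer (P : Set G)) = ⊥ := by
    have h1 := Cfsg.Agent.Lib.Helper11.PConstr.pPrimeCore_subgroup_le p
      (Subgroup.centralizer (P : Set G))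
    rw [hO, le_bot_iff] at h1
    exact (Subgroup.map_eq_bot_iff_of_injective _ (Subgroup.subtype_injective _)).mp h1
  have h17 := Cfsg.Agent.S0017.result (G := ↥(Subgroup.centralizer (P : Set G))) p hOC
  have hcent : ∀ y ∈ Cfsg.pCore p ↥(Subgroup.centralizer (P : Set G)),
      ∀ c : ↥(Subgroup.centralizer (P : Set G)), y * c = c * y := by
    intro y hy c
    have h1 : (y : G) ∈ Cfsg.pCore p G :=
      Cfsg.Agent.Lib.Helper11.PConstr.pCore_subgroup_le p (Subgroup.centralizer (P : Set G))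
        (Subgroup.mem_map_of_mem _ hy)
    have h2 : (y : G) ∈ P := hle (Subgroup.mem_inf.mpr ⟨h1, y.2⟩)
    apply Subtype.ext
    exact (Subgroup.mem_centralizer_iff.mp c.2) _ h2
  have htop : ∀ c : ↥(Subgroup.centralizer (P : Set G)),
      c ∈ Cfsg.pCore p ↥(Subgroup.centralizer (P : Set G)) := by
    intro c
    apply h17
    rw [Subgroup.mem_centralizer_iff]
    intro y hy
    exact hcent y hy c
  intro c
  obtain ⟨k, hk⟩ := pCore_isPGroup p (G := ↥(Subgroup.centralizer (P : Set G))) ⟨c, htop c⟩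
  refine ⟨k, ?_⟩
  have := congrArg Subtype.val hk
  simpa using this

/-- **S1465**. -/
theorem gen_abelian (hS : S1463Stmt) {G : Type u} [Group G] [Finite G] [Group.IsSolvable G]
    (hodd : Odd (Nat.card G)) (p : ℕ) [Fact p.Prime] (hp : p ≠ 2) (P : Subgroup G) [P.Normal]
    (hP : IsPGroup p P) (S : Set (Subgroup G))
    (hS' : ∀ B ∈ S, IsMulCommutative B ∧ IsPGroup p B ∧ P ≤ Subgroup.normalizer (B : Set G)) :
    (sSup S).map (QuotientGroup.mk' (Subgroup.centralizer (P : Set G))) ≤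
        Cfsg.pCore p (G ⧸ Subgroup.centralizer (P : Set G)) ∧
      (Cfsg.pPrimeCore p G = ⊥ → Cfsg.pCore p G ⊓ Subgroup.centralizer (P : Set G) ≤ P →
        sSup S ≤ Cfsg.pCore p G) := by
  have part1 : (sSup S).map (QuotientGroup.mk' (Subgroup.centralizer (P : Set G))) ≤
      Cfsg.pCore p (G ⧸ Subgroup.centralizer (P : Set G)) := by
    rw [Subgroup.map_le_iff_le_comap]
    apply sSup_le
    intro B hB
    rw [← Subgroup.map_le_iff_le_comap]
    obtain ⟨hBc, hBp, hBn⟩ := hS' B hB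
    exact pstable_normal hS hodd hp P B hP hBp
      (fun x hx b hb => quad_of_normalizes hBc
        ((Subgroup.mem_normalizer_iff.mp (hBn hx) b).mp hb) hb)
      _ (QuotientGroup.mk'_surjective _) (by rw [QuotientGroup.ker_mk'])
  refine ⟨part1, fun hO hle => ?_⟩
  exact le_pCore_of_map_le _ (isPGroup_centralizer p P hO hle) _ part1

end Cfsg.Agent.Lib.Helper9.QuadOdd4
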