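import Mathlib
import Cfsg.Agent.Lib.Helper9.S63Stmt
import Cfsg.Agent.Lib.Helper9.QuadOdd2

set_option autoImplicit false

namespace Cfsg.Agent.Lib.Helper9.S63Asm

open Cfsg.Agent.Lib.Helper9.S63Stmt

universe u

theorem final (hAb : UAb.{u}) (hA : CaseA.{u}) (hB : CaseB.{u})
    {G : Type u} [Group G] [Finite G] (hG : Cfsg.IsMinSimpleOddOrder G)
    (M : Subgroup G) (hM : IsCoatom M) (K U : Subgroup G)
    (hKU : Cfsg.IsSigmaDecomposition M K U) (hK1 : K ≠ ⊥) :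
    IsMulCommutative U ∧ ¬ Subgroup.normalizer (U : Set G) ≤ M := by
  refine ⟨hAb hG M K U hM hKU hK1, ?_⟩
  by_cases hU : U = ⊥
  · intro h
    apply hM.1
    rw [eq_top_iff]
    intro g _
    apply h
    rw [hU]
    apply Cfsg.Agent.Lib.Helper9.QuadOdd2.mem_normalizer_of_conj
    intro x hx
    rw [Subgroup.mem_bot] at hx ⊢
    rw [hx]; group
  · by_cases hr : ∃ r : ℕ, r ∈ Cfsg.tau2 M ∧ r ∣ Nat.card U
    · obtain ⟨r, hr, hd⟩ := hr
      exact hA hG M K U hM hKU hK1 r hr hd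
    · exact hB hG M K U hM hKU hK1 hU (fun r _ hd hr' => hr ⟨r, hr', hd⟩)

end Cfsg.Agent.Lib.Helper9.S63Asm
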