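import Mathlib
import Cfsg.Agent.Lib.Helper9.S63Stmt

set_option autoImplicit false

namespace Cfsg.Agent.Lib.Helper9.S63CASEB

open Cfsg.Agent.Lib.Helper9.S63Stmt

universe u

theorem cyc_of_le {G : Type u} [Group G] {U U' : Subgroup G} (hc : IsCyclic U) (h : U' ≤ U) :
    IsCyclic U' := by
  have h1 : IsCyclic (U'.subgroupOf U) := inferInstance
  exact isCyclic_of_surjective (Subgroup.subgroupOfEquivOfLe h).toMonoidHom
    (Subgroup.subgroupOfEquivOfLe h).surjective

theorem main (hCyc : UCyc.{u}) (hCent : CentU.{u}) (hNotZ : NotZ.{u}) (hTS : TildeSplit.{u})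
    (hPow : Pow.{u}) (h1 : Step1.{u}) (h2 : Step2.{u}) : CaseB.{u} := by
  intro G _ _ hG M K U hM hKU hK1 hU1 hB
  have hcyc : IsCyclic U := hCyc hG M K U hM hKU hK1 hB
  have hcent := hCent hG M K U hM hKU hK1 hB
  have key : ∀ n : ℕ, ∀ U' : Subgroup G, Nat.card U' = n → U' ≤ U → U' ≠ ⊥ →
      ¬ Subgroup.normalizer (U' : Set G) ≤ M := by
    intro n
    induction n using Nat.strong_induction_on with
    | _ n ih =>
      intro U' hn hU' hU'1
      have hc' : IsCyclic U' := cyc_of_le hcyc hU'
      obtain ⟨⟨u', hu'⟩, hgen⟩ := hc'.exists_generator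
      have hz : Subgroup.zpowers u' = U' := by
        apply le_antisymm
        · rw [Subgroup.zpowers_le]; exact hu'
        · intro y hy
          obtain ⟨k, hk⟩ := Subgroup.mem_zpowers_iff.1 (hgen ⟨y, hy⟩)
          rw [Subgroup.mem_zpowers_iff]
          refine ⟨k, ?_⟩
          have := congrArg Subtype.val hk
          simpa using this
      have hu'1 : u' ≠ 1 := by
        intro h
        apply hU'1
        rw [← hz, h, Subgroup.zpowers_one_eq_bot]
      obtain ⟨N₀, hN₀, hmem⟩ := hNotZ hG M K U hM hKU hK1 u' (hU' hu') hu'1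
      obtain ⟨N, hN, x, ρ, hx, hx1, hρ, hcomm, hcop, huxρ⟩ := hTS hG N₀ hN₀ u' hmem
      obtain ⟨hxz, hρz⟩ := hPow x ρ hcomm hcop
      rw [← huxρ, hz] at hxz hρz
      by_cases hρ1 : ρ = 1
      · have hux : u' = x := by rw [huxρ, hρ1, mul_one]
        apply h1 hG M K U hM hKU hK1 hcyc hcent N hN U' hU' hU'1
        rw [← hz, Subgroup.zpowers_le, hux]; exact hx
      · have hxU' : Subgroup.zpowers x ≤ U' := (Subgroup.zpowers_le).2 hxz
        have hx_ne : Subgroup.zpowers x ≠ ⊥ := by
          rw [Ne, Subgroup.zpowers_eq_bot]; exact hx1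
        have hlt : Nat.card (Subgroup.zpowers x) < n := by
          rw [← hn, ← hz, Nat.card_zpowers, Nat.card_zpowers, huxρ,
            (show Commute x ρ from hcomm).orderOf_mul_eq_mul_orderOf_of_coprime hcop]
          have hρo : 1 < orderOf ρ := by
            have h0 : 0 < orderOf ρ := orderOf_pos ρ
            have h1' : orderOf ρ ≠ 1 := fun h => hρ1 (orderOf_eq_one_iff.1 h)
            omega
          have hxo : 0 < orderOf x := orderOf_pos x
          nlinarith
        have hih := ih _ hlt (Subgroup.zpowers x) rfl (hxU'.trans hU') hx_ne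
        have h2' := h2 hG M K U hM hKU hK1 hcyc hcent N hN x ρ hx hx1 hρ hρ1 (hU' hxz)
          (hU' hρz) hih
        have e : Subgroup.zpowers x ⊔ Subgroup.zpowers ρ = U' := by
          apply le_antisymm
          · exact sup_le hxU' ((Subgroup.zpowers_le).2 hρz)
          · rw [← hz, Subgroup.zpowers_le, huxρ]
            exact Subgroup.mul_mem _ (Subgroup.mem_sup_left (Subgroup.mem_zpowers x))
              (Subgroup.mem_sup_right (Subgroup.mem_zpowers ρ))
        rw [e] at h2'
        exact h2'
  exact key _ U rfl le_rfl hU1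

end Cfsg.Agent.Lib.Helper9.S63CASEB
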