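import Mathlib
import Cfsg.Agent.Lib.Helper9.SS3

set_option autoImplicit false

namespace Cfsg.Agent.Lib.Helper9.SS5

open Subgroup Cfsg.Agent.H9 Cfsg.Agent.Lib.Helper9.SS3

universe u v

theorem normal_of_le_center {G : Type u} [Group G] (H : Subgroup G) (h : H ≤ center G) :
    H.Normal := by
  constructor
  intro a ha g
  have := Subgroup.mem_center_iff.mp (h ha) g
  have e : g * a * g⁻¹ = a := by rw [this]; group
  rw [e]; exact ha

/-- Finite `p`-groups are supersolvable. -/
theorem isSupersolvable_of_isPGroup (p : ℕ) [hp : Fact p.Prime] : ∀ (n : ℕ) (G : Type u)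
    [Group G] [Finite G], Nat.card G = n → IsPGroup p G → Cfsg.IsSupersolvable G := by
  intro n
  induction n using Nat.strong_induction_on with
  | _ n ih =>
    intro G _ _ hn hG
    by_cases hsub : Subsingleton G
    · exact isSupersolvable_of_subsingleton
    · have hnt : Nontrivial G := not_subsingleton_iff_nontrivial.mp hsub
      have hcnt : Nontrivial (center G) := hG.center_nontrivial
      have hcp : p ∣ Nat.card (center G) := by
        rcases (hG.to_subgroup (center G)).card_eq_or_dvd with h | h
        · exfalso
          have := (Finite.one_lt_card_iff_nontrivial (α := center G)).mpr hcnt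
          omega
        · exact h
      obtain ⟨z, hz⟩ := exists_prime_orderOf_dvd_card' (G := center G) p hcp
      set L := zpowers (z : G) with hL
      have hLle : L ≤ center G := by
        rw [hL, zpowers_le]; exact z.2
      have hLn : L.Normal := normal_of_le_center L hLle
      have hLcard : Nat.card L = p := by
        rw [hL, Nat.card_zpowers, Subgroup.orderOf_coe, hz]
      have hcard : Nat.card G = Nat.card (G ⧸ L) * p := by
        rw [← hLcard]; exact Subgroup.card_eq_card_quotient_mul_card_subgroup L
      have hQpos : 0 < Nat.card (G ⧸ L) := Nat.card_pos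
      have hQlt : Nat.card (G ⧸ L) < n := by
        rw [← hn, hcard]
        have := hp.out.two_le
        nlinarith
      have hQ := ih _ hQlt (G ⧸ L) rfl (hG.to_quotient L)
      exact isSupersolvable_of_cyclic_normal L (isCyclic_of_prime_card hLcard) hQ

/-- S0530: groups of order `2 * p ^ n` are supersolvable. -/
theorem isSupersolvable_of_card_two_mul_prime_pow (p : ℕ) (hp : p.Prime) : ∀ (n : ℕ)
    (G : Type u) [Group G] [Finite G], Nat.card G = 2 * p ^ n → Cfsg.IsSupersolvable G := by
  have : Fact p.Prime := ⟨hp⟩
  have : Fact (Nat.Prime 2) := ⟨Nat.prime_two⟩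
  intro n
  induction n with
  | zero =>
    intro G _ _ hn
    have h2 : IsPGroup 2 G := IsPGroup.of_card (n := 1) (by rw [hn]; norm_num)
    exact isSupersolvable_of_isPGroup 2 _ G rfl h2
  | succ n ih =>
    intro G _ _ hn
    by_cases hp2 : p = 2
    · have h2 : IsPGroup 2 G := IsPGroup.of_card (n := n + 2) (by rw [hn, hp2]; ring)
      exact isSupersolvable_of_isPGroup 2 _ G rfl h2
    · -- the Sylow `p`-subgroup has index two
      obtain ⟨P⟩ : Nonempty (Sylow p G) := inferInstance
      have hPcard : Nat.card P = p ^ (n + 1) := by
        rw [Sylow.card_eq_multiplicity, hn,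
          Nat.factorization_mul (by norm_num) (pow_ne_zero _ hp.ne_zero), Finsupp.add_apply,
          Nat.Prime.factorization_pow hp,
          Nat.factorization_eq_zero_of_not_dvd (fun h =>
            hp2 ((Nat.prime_dvd_prime_iff_eq hp Nat.prime_two).mp h))]
        simp
      have hPidx : (P : Subgroup G).index = 2 := by
        have h1 := Subgroup.card_mul_index (P : Subgroup G)
        rw [hPcard, hn, mul_comm] at h1
        exact Nat.eq_of_mul_eq_mul_right (pow_pos hp.pos _) h1
      have hPn : (P : Subgroup G).Normal := Subgroup.normal_of_index_eq_two hPidx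
      -- a central element of order `p` in `P`
      have hPg : IsPGroup p (P : Subgroup G) := P.isPGroup'
      have hPnt : Nontrivial (P : Subgroup G) := by
        rw [← Finite.one_lt_card_iff_nontrivial, hPcard]
        exact Nat.one_lt_pow (by omega) hp.one_lt
      have hcnt : Nontrivial (center (P : Subgroup G)) := hPg.center_nontrivial
      have hcp : p ∣ Nat.card (center (P : Subgroup G)) := by
        rcases (hPg.to_subgroup (center (P : Subgroup G))).card_eq_or_dvd with h | h
        · exfalso
          have := (Finite.one_lt_card_iff_nontrivial (α := center (P : Subgroup G))).mpr hcnt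
          omega
        · exact h
      obtain ⟨z0, hz0⟩ := exists_prime_orderOf_dvd_card' (G := center (P : Subgroup G)) p hcp
      set z : G := ((z0 : (P : Subgroup G)) : G) with hzdef
      have hzo : orderOf z = p := by
        rw [hzdef, Subgroup.orderOf_coe, Subgroup.orderOf_coe, hz0]
      have hzP : z ∈ (P : Subgroup G) := (z0 : (P : Subgroup G)).2
      have hzc : ∀ x ∈ (P : Subgroup G), x * z = z * x := by
        intro x hx
        have := Subgroup.mem_center_iff.mp z0.2 ⟨x, hx⟩
        exact congrArg Subtype.val this
      -- an involution
      have h2d : 2 ∣ Nat.card G := by rw [hn]; exact Dvd.intro _ rfl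
      obtain ⟨t, ht⟩ := exists_prime_orderOf_dvd_card' (G := G) 2 h2d
      have htP : t ∉ (P : Subgroup G) := by
        intro h
        have h1 := Subgroup.orderOf_dvd_natCard (P : Subgroup G) h
        rw [ht, hPcard] at h1
        exact hp2 ((Nat.prime_dvd_prime_iff_eq Nat.prime_two hp).mp
          (Nat.Prime.dvd_of_dvd_pow Nat.prime_two h1)).symm
      have ht2 : t * t = 1 := by
        have := pow_orderOf_eq_one t
        rwa [ht, pow_two] at this
      have htinv : t⁻¹ = t := inv_eq_of_mul_eq_one_left ht2
      have hcover : ∀ g : G, g ∈ (P : Subgroup G) ∨ ∃ x ∈ (P : Subgroup G), g = t * x := by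
        intro g
        by_cases hg : g ∈ (P : Subgroup G)
        · exact Or.inl hg
        · right
          refine ⟨t⁻¹ * g, ?_, by group⟩
          rw [Subgroup.mul_mem_iff_of_index_two hPidx]
          constructor
          · intro h; exact absurd ((inv_mem_iff (H := (P : Subgroup G))).mp h) htP
          · intro h; exact absurd h hg
      -- key normality criterion
      have hnormal : ∀ y : G, (∀ x ∈ (P : Subgroup G), x * y * x⁻¹ = y) →
          t * y * t⁻¹ ∈ zpowers y → (zpowers y).Normal := by
        intro y hy1 hy2
        constructor
        intro a ha g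
        obtain ⟨j, rfl⟩ := Subgroup.mem_zpowers_iff.mp ha
        have hgy : g * y * g⁻¹ ∈ zpowers y := by
          rcases hcover g with hg | ⟨x, hx, rfl⟩
          · rw [hy1 g hg]; exact mem_zpowers y
          · have : t * x * y * (t * x)⁻¹ = t * (x * y * x⁻¹) * t⁻¹ := by group
            rw [this, hy1 x hx]; exact hy2
        have : g * y ^ j * g⁻¹ = (g * y * g⁻¹) ^ j := by rw [conj_zpow]
        rw [this]; exact zpow_mem hgy j
      -- the conjugate of `z` by `t`
      set z' := t * z * t⁻¹ with hz'
      have hz'P : z' ∈ (P : Subgroup G) := hPn.conj_mem z hzP t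
      have hz'c : ∀ x ∈ (P : Subgroup G), x * z' = z' * x := by
        intro x hx
        have h1 : t⁻¹ * x * t ∈ (P : Subgroup G) := by
          have := hPn.conj_mem x hx t⁻¹
          simpa using this
        have h2 := hzc _ h1
        calc x * z' = t * ((t⁻¹ * x * t) * z) * t⁻¹ := by rw [hz']; group
          _ = t * (z * (t⁻¹ * x * t)) * t⁻¹ := by rw [h2]
          _ = z' * x := by rw [hz']; group
      have hzz' : z * z' = z' * z := hz'c z hzP
      obtain ⟨L, hLn, hLc⟩ : ∃ L : Subgroup G, L.Normal ∧ Nat.card L = p := by
        by_cases hw : z * z' = 1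
        · -- `t` inverts `z`
          have hinv : z' = z⁻¹ := (eq_inv_of_mul_eq_one_right hw)
          refine ⟨zpowers z, hnormal z ?_ ?_, by rw [Nat.card_zpowers, hzo]⟩
          · intro x hx
            rw [hzc x hx]; group
          · rw [← hz', hinv]; exact inv_mem (mem_zpowers z)
        · -- `z * z'` is central
          set w := z * z' with hwdef
          have hwo : orderOf w = p := by
            apply orderOf_eq_prime _ hw
            have h1 : z ^ p = 1 := by rw [← hzo]; exact pow_orderOf_eq_one z
            have h2 : z' ^ p = 1 := by
              rw [hz', conj_pow, h1]; group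
            rw [hwdef, (Commute.mul_pow hzz' p), h1, h2, one_mul]
          refine ⟨zpowers w, hnormal w ?_ ?_, by rw [Nat.card_zpowers, hwo]⟩
          · intro x hx
            have : x * w = w * x := by
              rw [hwdef, ← mul_assoc, hzc x hx, mul_assoc, hz'c x hx, ← mul_assoc]
            rw [this]; group
          · have : t * w * t⁻¹ = w := by
              have e1 : t * z' * t⁻¹ = z := by
                rw [hz', htinv]
                calc t * (t * z * t) * t = (t * t) * z * (t * t) := by group
                  _ = z := by rw [ht2]; group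
              calc t * w * t⁻¹ = (t * z * t⁻¹) * (t * z' * t⁻¹) := by rw [hwdef]; group
                _ = z' * z := by rw [e1]
                _ = w := hzz'.symm
            rw [this]; exact mem_zpowers w
      have hcard : Nat.card G = Nat.card (G ⧸ L) * p := by
        rw [← hLc]; exact Subgroup.card_eq_card_quotient_mul_card_subgroup L
      have hQcard : Nat.card (G ⧸ L) = 2 * p ^ n := by
        rw [hn, pow_succ, ← mul_assoc] at hcard
        exact (Nat.eq_of_mul_eq_mul_right hp.pos hcard).symm
      exact isSupersolvable_of_cyclic_normal L (isCyclic_of_prime_card hLc)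
        (ih (G ⧸ L) hQcard)

end Cfsg.Agent.Lib.Helper9.SS5
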