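import Mathlib
import Cfsg.Agent.Lib.Helper9.Wie3
import Cfsg.Agent.S0144

set_option autoImplicit false

namespace Cfsg.Agent.Lib.Helper9.Wie4

open Subgroup

universe u

/-- Every nontrivial subgroup has, for each prime divisor `p` of its order, a proper subgroup of
`p`-power index. -/
def PP (G : Type u) [Group G] : Prop :=
  ∀ H : Subgroup G, H ≠ ⊥ → ∀ p : ℕ, p.Prime → p ∣ Nat.card H →
    ∃ K : Subgroup H, K ≠ ⊤ ∧ ∃ k : ℕ, K.index = p ^ k

theorem pp_subgroup {G : Type u} [Group G] (h : PP G) (H : Subgroup G) : PP H := by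
  intro L hL p hp hdvd
  let e : L ≃* L.map H.subtype := L.equivMapOfInjective H.subtype H.subtype_injective
  have hL' : L.map H.subtype ≠ ⊥ :=
    fun e' => hL ((map_eq_bot_iff_of_injective L H.subtype_injective).1 e')
  have hcard : Nat.card (L.map H.subtype) = Nat.card L := (Nat.card_congr e.toEquiv).symm
  obtain ⟨K', hK', k, hk⟩ := h _ hL' p hp (hcard ▸ hdvd)
  refine ⟨K'.comap e.toMonoidHom, ?_, k, ?_⟩
  · intro e'
    apply hK'
    exact Subgroup.comap_injective e.surjective (e'.trans (Subgroup.comap_top _).symm)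
  · rw [Subgroup.index_comap_of_surjective _ e.surjective]; exact hk

theorem solvable_of_pp : ∀ (n : ℕ) (G : Type u) [Group G] [Finite G], Nat.card G = n → PP G →
    Group.IsSolvable G := by
  intro n
  induction n using Nat.strong_induction_on with
  | _ n ih =>
    intro G _ _ hn h
    have hprop : ∀ H : Subgroup G, H ≠ ⊤ → Group.IsSolvable H := by
      intro H hH
      have hlt : Nat.card H < n := by
        rw [← hn]
        exact lt_of_le_of_ne (card_le_card_group H) (fun e => hH ((card_eq_iff_eq_top H).1 e))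
      exact ih (Nat.card H) hlt H rfl (pp_subgroup h H)
    have hprime : ∀ p : ℕ, p.Prime → p ∣ Nat.card G →
        ∃ K : Subgroup G, Group.IsSolvable K ∧ ∃ k : ℕ, K.index = p ^ k := by
      intro p hp hdvd
      have htop : (⊤ : Subgroup G) ≠ ⊥ := by
        intro e
        have h1 : Nat.card G = 1 := by rw [← Subgroup.card_top (G := G), e, Subgroup.card_bot]
        rw [h1] at hdvd
        exact hp.one_lt.ne' (Nat.dvd_one.1 hdvd)
      obtain ⟨K₀, hK₀, k, hk⟩ := h ⊤ htop p hp (by rw [Subgroup.card_top]; exact hdvd)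
      have hidx : (K₀.map (⊤ : Subgroup G).subtype).index = p ^ k := by
        rw [index_map_subtype, index_top, mul_one, hk]
      refine ⟨K₀.map (⊤ : Subgroup G).subtype, hprop _ ?_, k, hidx⟩
      intro e
      rw [e, index_top] at hidx
      apply hK₀
      rw [← index_eq_one, hk, ← hidx]
    have hpos : 0 < n := hn ▸ Nat.card_pos
    by_cases h1 : n = 1
    · have : Subsingleton G := (Nat.card_eq_one_iff_unique.1 (hn.trans h1)).1
      infer_instance
    obtain ⟨p, hpdef⟩ : ∃ p, p = n.minFac := ⟨_, rfl⟩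
    have hp : p.Prime := hpdef ▸ Nat.minFac_prime h1
    have hpn : p ∣ n := hpdef ▸ Nat.minFac_dvd n
    obtain ⟨a, m, hpm, hnm⟩ := Nat.exists_eq_pow_mul_and_not_dvd hpos.ne' p hp.ne_one
    by_cases hm1 : m = 1
    · exact Cfsg.Agent.S0144.result p p a 0 hp hp (by rw [hn, hnm, hm1]; simp)
    obtain ⟨q, hqdef⟩ : ∃ q, q = m.minFac := ⟨_, rfl⟩
    have hq : q.Prime := hqdef ▸ Nat.minFac_prime hm1
    have hqm' : q ∣ m := hqdef ▸ Nat.minFac_dvd m
    have hm0 : m ≠ 0 := by
      rintro rfl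
      simp at hnm
      omega
    obtain ⟨b, m', hqm, hmm⟩ := Nat.exists_eq_pow_mul_and_not_dvd hm0 q hq.ne_one
    by_cases hm'1 : m' = 1
    · exact Cfsg.Agent.S0144.result p q a b hp hq (by rw [hn, hnm, hmm, hm'1]; simp)
    obtain ⟨r, hrdef⟩ : ∃ r, r = m'.minFac := ⟨_, rfl⟩
    have hr : r.Prime := hrdef ▸ Nat.minFac_prime hm'1
    have hrm' : r ∣ m' := hrdef ▸ Nat.minFac_dvd m'
    have hm'm : m' ∣ m := Dvd.intro_left (q ^ b) hmm.symm
    have hmn : m ∣ n := Dvd.intro_left (p ^ a) hnm.symm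
    have hqn : q ∣ n := dvd_trans hqm' hmn
    have hrn : r ∣ n := dvd_trans hrm' (dvd_trans hm'm hmn)
    have hqp : q ≠ p := by rintro rfl; exact hpm hqm'
    have hrq : r ≠ q := by rintro rfl; exact hqm hrm'
    have hrp : r ≠ p := by rintro rfl; exact hpm (dvd_trans hrm' hm'm)
    obtain ⟨Kp, hKp, i, hi⟩ := hprime p hp (hn ▸ hpn)
    obtain ⟨Kq, hKq, j, hj⟩ := hprime q hq (hn ▸ hqn)
    obtain ⟨Kr, hKr, k, hk⟩ := hprime r hr (hn ▸ hrn)
    exact Cfsg.Agent.Lib.Helper9.Wie3.wielandt _ G rfl Kp Kq Kr hKp hKq hKr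
      (by rw [hi, hj]; exact Nat.Coprime.pow _ _ ((Nat.coprime_primes hp hq).2 (Ne.symm hqp)))
      (by rw [hi, hk]; exact Nat.Coprime.pow _ _ ((Nat.coprime_primes hp hr).2 (Ne.symm hrp)))
      (by rw [hj, hk]; exact Nat.Coprime.pow _ _ ((Nat.coprime_primes hq hr).2 (Ne.symm hrq)))

end Cfsg.Agent.Lib.Helper9.Wie4
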